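import Mathlib
import Cfsg.Agent.OMax.Max
import Cfsg.Agent.Asch.Members
import Cfsg.Agent.AschCases.FormSix

set_option autoImplicit false
set_option linter.unusedSectionVars false

/-!
The commutator subgroup of an orthogonal group in dimension at least seven lies in no member of the geometric classes:
basic facts, and class 1.
-/

namespace Cfsg.Agent.AschCases.OrthNot

open QuadraticMap Cfsg.Agent.Orth Cfsg.Agent.OMax Cfsg.Geo
open scoped Matrix

variable {ι : Type} [Fintype ι] [DecidableEq ι] {F : Type*} [Field F]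

/-- An element of the abstract group gives an element of the matrix group. -/
theorem exists_omega {Q : QuadraticForm F (ι → F)} {h : OGrp Q} (hh : h ∈ commutator (OGrp Q)) :
    ∃ g ∈ omegaGL ⇑Q, ∀ x, (g : Matrix ι ι F) *ᵥ x = (h : (ι → F) ≃ₗ[F] (ι → F)) x := by
  refine ⟨((bridge Q).symm h : ↥(Cfsg.isometryGroup F ⇑Q)), ?_, fun x => bridge_symm_mulVec Q h x⟩
  rw [mem_omegaGL_iff, MulEquiv.apply_symm_apply]
  exact hh

/-- Transitivity on vectors of the same norm. -/
theorem omega_trans [Finite F] {Q : QuadraticForm F (ι → F)} (hQ : (polarBilin Q).Nondegenerate)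
    (hn : 7 ≤ Fintype.card ι) {x y : ι → F} (hx : x ≠ 0) (hy : y ≠ 0) (hxy : Q x = Q y) :
    ∃ g ∈ omegaGL ⇑Q, (g : Matrix ι ι F) *ᵥ x = y := by
  have hn' : 7 ≤ Module.finrank F (ι → F) := by rwa [Module.finrank_fintype_fun_eq_card]
  obtain ⟨h, hh, hxy'⟩ := SGrp_trans hQ hn' hx hy hxy
  obtain ⟨g, hg, hgx⟩ := exists_omega (SGrp_le_comm hQ (by omega) hh)
  exact ⟨g, hg, by rw [hgx, hxy']⟩

/-- Siegel transformations. -/
theorem exists_siegel [Finite F] {Q : QuadraticForm F (ι → F)} (hQ : (polarBilin Q).Nondegenerate)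
    (hn : 7 ≤ Fintype.card ι) {a b : ι → F} (ha : Q a = 0) (hab : polar Q a b = 0) :
    ∃ g ∈ omegaGL ⇑Q, ∀ x, (g : Matrix ι ι F) *ᵥ x
      = x + polar Q x b • a - polar Q x a • b - (Q b * polar Q x a) • a := by
  have hn' : 5 ≤ Module.finrank F (ι → F) := by rw [Module.finrank_fintype_fun_eq_card]; omega
  obtain ⟨g, hg, hgx⟩ := exists_omega (eich_mem_comm hQ hn' ha hab)
  exact ⟨g, hg, fun x => by rw [hgx, eich_apply]⟩

theorem omega_isom {Q : QuadraticForm F (ι → F)} {g : Matrix.GeneralLinearGroup ι F} (hg : g ∈ omegaGL ⇑Q)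
    (x : ι → F) : Q ((g : Matrix ι ι F) *ᵥ x) = Q x :=
  omegaGL_le Q hg x x

theorem omega_polar {Q : QuadraticForm F (ι → F)} {g : Matrix.GeneralLinearGroup ι F} (hg : g ∈ omegaGL ⇑Q)
    (x y : ι → F) : polar Q ((g : Matrix ι ι F) *ᵥ x) ((g : Matrix ι ι F) *ᵥ y) = polar Q x y := by
  simp only [QuadraticMap.polar, ← Matrix.mulVec_add, omega_isom hg]

/-- A hyperbolic pair. -/
theorem exists_hyp [Finite F] {Q : QuadraticForm F (ι → F)} (hQ : (polarBilin Q).Nondegenerate)
    (hn : 7 ≤ Fintype.card ι) : ∃ e f : Fin 3 → ι → F, IsHyp Q e f :=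
  exists_isHyp hQ 3 (by rw [Module.finrank_fintype_fun_eq_card]; omega)

theorem eq_zero_of_polar {Q : QuadraticForm F (ι → F)} (hQ : (polarBilin Q).Nondegenerate) {x : ι → F}
    (h : ∀ y, polar Q x y = 0) : x = 0 := hQ.1 x h

/-- Class 1: irreducibility. -/
theorem not_le_subspaceStabilizer [Finite F] {Q : QuadraticForm F (ι → F)} (hQ : (polarBilin Q).Nondegenerate)
    (hn : 7 ≤ Fintype.card ι) (W : Submodule F (ι → F)) (h0 : W ≠ ⊥) (h1 : W ≠ ⊤) :
    ¬ omegaGL ⇑Q ≤ subspaceStabilizer W := by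
  intro hle
  -- W contains a singular vector, or not: use a vector w of W
  have hstab : ∀ g ∈ omegaGL ⇑Q, ∀ w ∈ W, (g : Matrix ι ι F) *ᵥ w ∈ W := fun g hg w hw =>
    (mem_subspaceStabilizer.mp (hle hg) w).mp hw
  obtain ⟨w, hw, hw0⟩ := (Submodule.ne_bot_iff W).mp h0
  -- every vector of the same norm as w lies in W
  have hall : ∀ x, x ≠ 0 → Q x = Q w → x ∈ W := by
    intro x hx hxw
    obtain ⟨g, hg, hgx⟩ := omega_trans hQ hn hw0 hx hxw.symm
    rw [← hgx]; exact hstab g hg w hw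
  obtain ⟨e, f, hef⟩ := exists_hyp hQ hn
  -- a singular vector
  have he : e 0 ∈ W := by
    have h1 : Q (e 1 + Q w • f 1) = Q w := by
      rw [qadd, qsmul, psr, hef.qe, hef.qf, hef.ef]; simp
    have h2 : Q (e 0 + (e 1 + Q w • f 1)) = Q w := by
      rw [qadd, h1, hef.qe, par, psr, hef.ee, hef.ef]; simp
    have hp : ∀ y : ι → F, polar Q (y + (e 1 + Q w • f 1)) (f 1) = polar Q y (f 1) + 1 := by
      intro y
      rw [pal, pal, psl, hef.ef, hef.ff]; simp
    have h3 := hall (e 1 + Q w • f 1) (by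
      intro h0
      have := hp 0
      rw [zero_add, h0, polar_zero_left, zero_add] at this
      exact one_ne_zero this.symm) h1
    have h4 := hall (e 0 + (e 1 + Q w • f 1)) (by
      intro h0
      have := hp (e 0)
      rw [h0, polar_zero_left, hef.ef] at this
      simp at this) h2
    have h5 := W.sub_mem h4 h3
    rwa [add_sub_cancel_right] at h5
  have he0 : e 0 ≠ 0 := by
    intro h0
    have := hef.ef 0 0
    rw [h0, polar_zero_left] at this
    simp at this
  have hsing : ∀ x, Q x = 0 → x ∈ W := by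
    intro x hx
    by_cases hx0 : x = 0
    · rw [hx0]; exact W.zero_mem
    obtain ⟨g, hg, hgx⟩ := omega_trans hQ hn he0 hx0 (by rw [hx, hef.qe])
    rw [← hgx]; exact hstab g hg _ he
  -- W contains e 0, f 0, hence everything
  apply h1
  rw [eq_top_iff]
  rintro x -
  -- y = x - polar x f0 e0 - polar x e0 f0 is orthogonal to e0, f0
  obtain ⟨y, hy⟩ : ∃ y, y = x - polar Q x (f 0) • e 0 - polar Q x (e 0) • f 0 := ⟨_, rfl⟩
  have hye : polar Q (e 0) y = 0 := by
    rw [hy, pdr, pdr, psr, psr, hef.ee, hef.ef, pc Q (e 0) x]; simp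
  have hyf : polar Q (f 0) y = 0 := by
    rw [hy, pdr, pdr, psr, psr, hef.ff, hef.fe, pc Q (f 0) x]; simp
  have hyW : y ∈ W := by
    have h2 : Q (e 0 + y - Q y • f 0) = 0 := by
      rw [qsub, qadd, hef.qe, hye, qsmul, hef.qf, psr, pal, hef.ef, pc Q y, hyf]; simp
    have h3 := hsing _ h2
    have h4 : y = (e 0 + y - Q y • f 0) - e 0 + Q y • f 0 := by abel
    rw [h4]
    exact W.add_mem (W.sub_mem h3 he) (W.smul_mem _ (hsing _ (hef.qf 0)))
  have h5 : x = y + polar Q x (f 0) • e 0 + polar Q x (e 0) • f 0 := by rw [hy]; abel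
  rw [h5]
  exact W.add_mem (W.add_mem hyW (W.smul_mem _ he)) (W.smul_mem _ (hsing _ (hef.qf 0)))

end Cfsg.Agent.AschCases.OrthNot
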