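import Mathlib
import Cfsg.Agent.AschCases.OrthNot.Basic

set_option autoImplicit false
set_option linter.unusedSectionVars false

/-!
Classes 4 and 7: the commutator subgroup of an orthogonal group preserves no tensor decomposition.
-/

namespace Cfsg.Agent.AschCases.OrthNot

open QuadraticMap Cfsg.Agent.Orth Cfsg.Agent.OMax Cfsg.Geo
open scoped Matrix Kronecker

variable {ι : Type} [Fintype ι] [DecidableEq ι] {F : Type*} [Field F]

theorem glReindex_mulVec {κ : Type} [Fintype κ] [DecidableEq κ] (e : ι ≃ κ)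
    (s : Matrix.GeneralLinearGroup κ F) (X : κ → F) :
    (glReindex e.symm s : Matrix ι ι F) *ᵥ (X ∘ e) = ((s : Matrix κ κ F) *ᵥ X) ∘ e := by
  funext i
  rw [Matrix.mulVec, dotProduct, Function.comp_apply, Matrix.mulVec, dotProduct, ← e.sum_comp]
  apply Finset.sum_congr rfl
  intro j _
  rw [glReindex_apply]
  rfl

theorem inv_mulVec_self (P : Matrix.GeneralLinearGroup ι F) (x : ι → F) :
    ((P⁻¹ : Matrix.GeneralLinearGroup ι F) : Matrix ι ι F) *ᵥ ((P : Matrix ι ι F) *ᵥ x) = x := by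
  rw [Matrix.mulVec_mulVec, ← Units.val_mul, inv_mul_cancel, Units.val_one, Matrix.one_mulVec]

theorem not_le_of_pure [Finite F] {Q : QuadraticForm F (ι → F)} (hQ : (polarBilin Q).Nondegenerate)
    (hn : 7 ≤ Fintype.card ι) {κ : Type} [Fintype κ] [DecidableEq κ] (e : ι ≃ κ)
    (P : Matrix.GeneralLinearGroup ι F) (S : Subgroup (Matrix.GeneralLinearGroup κ F)) (Pure : (κ → F) → Prop)
    (hS : ∀ s ∈ S, ∀ X, Pure X → Pure ((s : Matrix κ κ F) *ᵥ X)) (X Y : κ → F) (hX : Pure X) (hX0 : X ≠ 0)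
    (hY0 : Y ≠ 0) (hY : ¬ Pure Y) (hQX : Q ((P : Matrix ι ι F) *ᵥ (X ∘ e)) = 0)
    (hQY : Q ((P : Matrix ι ι F) *ᵥ (Y ∘ e)) = 0) :
    ¬ omegaGL ⇑Q ≤ (S.map (glReindex e.symm).toMonoidHom).map (MulAut.conj P).toMonoidHom := by
  intro hle
  have hne : ∀ Z : κ → F, Z ≠ 0 → (P : Matrix ι ι F) *ᵥ (Z ∘ e) ≠ 0 := by
    intro Z hZ h0
    apply hZ
    have h1 := inv_mulVec_self P (Z ∘ e)
    rw [h0, Matrix.mulVec_zero] at h1
    funext i
    have := congrFun h1 (e.symm i)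
    simpa using this.symm
  obtain ⟨g, hg, hgx⟩ := omega_trans hQ hn (hne X hX0) (hne Y hY0) (by rw [hQX, hQY])
  obtain ⟨z, hz, hz'⟩ := Subgroup.mem_map.mp (hle hg)
  obtain ⟨s, hs, hs'⟩ := Subgroup.mem_map.mp hz
  have h1 : g = P * glReindex e.symm s * P⁻¹ := by rw [← hz', ← hs']; rfl
  rw [h1, Units.val_mul, Units.val_mul, ← Matrix.mulVec_mulVec, ← Matrix.mulVec_mulVec, inv_mulVec_self,
    glReindex_mulVec] at hgx
  have h2 := congrArg (fun w => ((P⁻¹ : Matrix.GeneralLinearGroup ι F) : Matrix ι ι F) *ᵥ w) hgx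
  simp only [inv_mulVec_self] at h2
  have h3 : (s : Matrix κ κ F) *ᵥ X = Y := by
    funext i
    have := congrFun h2 (e.symm i)
    simpa using this
  exact hY (h3 ▸ hS s hs X hX)

/-- Linear independence of two vectors, elementary form. -/
def Indep2 {κ : Type} (u v : κ → F) : Prop := ∀ a b : F, a • u + b • v = 0 → a = 0 ∧ b = 0

theorem indep2_of_not_mem {κ : Type} {u v : κ → F} (hu : u ≠ 0) (hv : v ∉ Submodule.span F {u}) : Indep2 u v := by
  intro a b h
  have hb : b = 0 := by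
    by_contra hb
    apply hv
    have h1 : v = (-(b⁻¹ * a)) • u := by
      have h2 : b • v = -(a • u) := eq_neg_of_add_eq_zero_right h
      rw [neg_smul, mul_smul, ← smul_neg, ← h2, smul_smul, inv_mul_cancel₀ hb, one_smul]
    rw [h1]
    exact Submodule.smul_mem _ _ (Submodule.mem_span_singleton_self u)
  rw [hb, zero_smul, add_zero] at h
  exact ⟨(smul_eq_zero.mp h).resolve_right hu, hb⟩

theorem Indep2.symm {κ : Type} {u v : κ → F} (h : Indep2 u v) : Indep2 v u := by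
  intro a b hab
  rw [add_comm] at hab
  exact (h b a hab).symm

theorem Indep2.left_ne {κ : Type} {u v : κ → F} (h : Indep2 u v) : u ≠ 0 := by
  rintro rfl
  exact one_ne_zero (h 1 0 (by simp)).1

theorem Indep2.exists_dual {κ : Type} {u v : κ → F} (h : Indep2 u v) : ∃ f : (κ → F) →ₗ[F] F, f u = 1 ∧ f v = 0 := by
  have h1 : u ∉ Submodule.span F {v} := by
    intro h1
    obtain ⟨c, hc⟩ := Submodule.mem_span_singleton.mp h1
    have := (h 1 (-c) (by rw [one_smul, neg_smul, hc]; simp)).1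
    exact one_ne_zero this
  obtain ⟨f, hf, hS⟩ := Submodule.exists_le_ker_of_notMem h1
  refine ⟨(f u)⁻¹ • f, ?_, ?_⟩
  · rw [LinearMap.smul_apply, smul_eq_mul, inv_mul_cancel₀ hf]
  · rw [LinearMap.smul_apply, LinearMap.mem_ker.mp (hS (Submodule.mem_span_singleton_self v)), smul_zero]

/-- A sum of two pure tensors with independent factors is not pure. -/
theorem nonpure {κ₁ κ₂ : Type} {u u' y : κ₁ → F} {v v' z : κ₂ → F} (hu : Indep2 u u') (hv : Indep2 v v') :
    ¬ ∀ a b, u a * v b + u' a * v' b = y a * z b := by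
  intro h
  have h1 : ∀ b, v b • u + v' b • u' = z b • y := by
    intro b
    funext a
    have := h a b
    simp only [Pi.add_apply, Pi.smul_apply, smul_eq_mul]
    linear_combination this
  obtain ⟨f, hf1, hf2⟩ := hu.exists_dual
  obtain ⟨g, hg1, hg2⟩ := hu.symm.exists_dual
  have h2 : ∀ b, v b = z b * f y := by
    intro b
    have := congrArg f (h1 b)
    rw [map_add, map_smul, map_smul, map_smul, hf1, hf2] at this
    simpa using this
  have h3 : ∀ b, v' b = z b * g y := by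
    intro b
    have := congrArg g (h1 b)
    rw [map_add, map_smul, map_smul, map_smul, hg1, hg2] at this
    simpa using this
  have h4 := hv (g y) (-(f y)) (by
    funext b
    simp only [Pi.add_apply, Pi.smul_apply, smul_eq_mul, Pi.zero_apply]
    rw [h2, h3]; ring)
  apply hv.left_ne
  funext b
  rw [h2, neg_eq_zero.mp h4.2, mul_zero]; rfl

theorem bilin_gram {κ : Type} [Fintype κ] [DecidableEq κ] {f : (κ → F) → (κ → F) → F} (hf : IsBilinearForm f)
    (x y : κ → F) : ∑ a, ∑ b, x a * gramMatrix f a b * y b = f x y := by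
  have hs1 : ∀ (s : Finset κ) (g : κ → κ → F) (v : κ → F), f (∑ a ∈ s, g a) v = ∑ a ∈ s, f (g a) v := by
    intro s g v
    induction s using Finset.induction_on with
    | empty =>
      have := hf.smul_left 0 0 v
      rw [zero_smul, zero_mul] at this
      simpa using this
    | insert a s ha ih => rw [Finset.sum_insert ha, Finset.sum_insert ha, hf.add_left, ih]
  have hs2 : ∀ (s : Finset κ) (g : κ → κ → F) (v : κ → F), f v (∑ a ∈ s, g a) = ∑ a ∈ s, f v (g a) := by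
    intro s g v
    induction s using Finset.induction_on with
    | empty =>
      have := hf.smul_right 0 v 0
      rw [zero_smul, zero_mul] at this
      simpa using this
    | insert a s ha ih => rw [Finset.sum_insert ha, Finset.sum_insert ha, hf.add_right, ih]
  have hx : ∀ x : κ → F, x = ∑ a, x a • Pi.single a (1 : F) := by
    intro x
    funext i
    rw [Finset.sum_apply, Finset.sum_eq_single i]
    · simp
    · intro b _ hb; simp [Ne.symm hb]
    · simp
  conv_rhs => rw [hx x, hx y]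
  rw [hs1]
  apply Finset.sum_congr rfl
  intro a _
  rw [hs2]
  apply Finset.sum_congr rfl
  intro b _
  rw [hf.smul_left, hf.smul_right, gramMatrix]
  ring

/-- The tensor form on pure tensors. -/
theorem form_pure2 {n₁ n₂ : ℕ} {f₁ : (Fin n₁ → F) → (Fin n₁ → F) → F} {f₂ : (Fin n₂ → F) → (Fin n₂ → F) → F}
    (h₁ : IsBilinearForm f₁) (h₂ : IsBilinearForm f₂) (x₁ y₁ : Fin n₁ → F) (x₂ y₂ : Fin n₂ → F) :
    formOfGram id (gramMatrix f₁ ⊗ₖ gramMatrix f₂) (fun a : Fin n₁ × Fin n₂ => x₁ a.1 * x₂ a.2)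
      (fun a : Fin n₁ × Fin n₂ => y₁ a.1 * y₂ a.2) = f₁ x₁ y₁ * f₂ x₂ y₂ := by
  rw [← bilin_gram h₁, ← bilin_gram h₂, formOfGram, Fintype.sum_prod_type, Finset.sum_mul_sum]
  refine Finset.sum_congr rfl fun a _ => Finset.sum_congr rfl fun b _ => ?_
  rw [Fintype.sum_prod_type, Finset.sum_mul_sum]
  refine Finset.sum_congr rfl fun c _ => Finset.sum_congr rfl fun d _ => ?_
  rw [Matrix.kroneckerMap_apply]
  simp only [id_eq]
  ring

theorem form_pt {k t : ℕ} {f₁ : (Fin k → F) → (Fin k → F) → F} (h₁ : IsBilinearForm f₁) (x y : Fin t → Fin k → F) :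
    ∑ a, ∑ b, pt x a * (∏ i, gramMatrix f₁ (a i) (b i)) * id (pt y b) = ∏ i, f₁ (x i) (y i) := by
  simp only [← bilin_gram h₁]
  rw [Finset.prod_univ_sum, Fintype.piFinset_univ]
  refine Finset.sum_congr rfl fun a _ => ?_
  rw [Finset.prod_univ_sum, Fintype.piFinset_univ]
  refine Finset.sum_congr rfl fun b _ => ?_
  rw [Finset.prod_mul_distrib, Finset.prod_mul_distrib]
  rfl

/-- A symmetric form in dimension at least three has a nonzero isotropic vector. -/
theorem exists_iso_sym [Finite F] (h2 : (2 : F) ≠ 0) {n : ℕ} (hn : 3 ≤ n) {f : (Fin n → F) → (Fin n → F) → F}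
    (hf : IsSymmetricForm f) : ∃ v, v ≠ 0 ∧ f v v = 0 := by
  let B : LinearMap.BilinForm F (Fin n → F) := LinearMap.mk₂ F f hf.bilinear.add_left hf.bilinear.smul_left
    hf.bilinear.add_right (fun c v x => hf.bilinear.smul_right c v x)
  have hB : ∀ x y, B x y = f x y := fun x y => rfl
  let q : QuadraticForm F (Fin n → F) := B.toQuadraticMap
  have hq : ∀ x, q x = f x x := fun x => rfl
  have hpol : ∀ x y, polar q x y = 2 * f x y := by
    intro x y
    rw [QuadraticMap.polar, hq, hq, hq, hf.bilinear.add_left, hf.bilinear.add_right, hf.bilinear.add_right,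
      hf.symm y x]
    ring
  have hnd : (polarBilin q).Nondegenerate := by
    have key : ∀ u : Fin n → F, (∀ v, polar q u v = 0) → u = 0 := by
      intro u hu
      by_contra hu0
      obtain ⟨-, x, hx⟩ := hf.nondegenerate u hu0
      have := hu x
      rw [hpol] at this
      exact hx ((mul_eq_zero.mp this).resolve_left h2)
    refine ⟨fun u hu => key u hu, fun u hu => key u fun v => ?_⟩
    rw [pc]; exact hu v
  obtain ⟨v, hv, hv'⟩ := exists_singular hnd (by
    rw [Module.finrank_fintype_fun_eq_card, Fintype.card_fin]; exact hn)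
  exact ⟨v, hv, hv'⟩

/-- A vector orthogonal to `u` and independent of `u`. -/
theorem exists_perp_indep {n : ℕ} (hn : 3 ≤ n) {f : (Fin n → F) → (Fin n → F) → F} (hf : IsBilinearForm f)
    {u : Fin n → F} (hu : u ≠ 0) : ∃ w, f u w = 0 ∧ Indep2 u w := by
  let L : (Fin n → F) →ₗ[F] F :=
    { toFun := fun x => f u x
      map_add' := fun x y => hf.add_right u x y
      map_smul' := fun c x => hf.smul_right c u x }
  obtain ⟨z, hz, hz'⟩ := exists_ker_not_mem hn L u
  exact ⟨z, hz, indep2_of_not_mem hu hz'⟩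

theorem exists_indep {n : ℕ} (hn : 2 ≤ n) {u : Fin n → F} (hu : u ≠ 0) : ∃ w, Indep2 u w := by
  obtain ⟨z, hz'⟩ := exists_not_mem_span hn u
  exact ⟨z, indep2_of_not_mem hu hz'⟩

/-- Pure tensors with two factors. -/
def Pure2 {n₁ n₂ : ℕ} (X : Fin n₁ × Fin n₂ → F) : Prop :=
  ∃ (x₁ : Fin n₁ → F) (x₂ : Fin n₂ → F), X = fun a => x₁ a.1 * x₂ a.2

theorem pure2_action {n₁ n₂ : ℕ} (s : Matrix.GeneralLinearGroup (Fin n₁ × Fin n₂) F)
    (hs : s ∈ kroneckerSubgroup n₁ n₂ F) (X : Fin n₁ × Fin n₂ → F) (hX : Pure2 X) :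
    Pure2 ((s : Matrix (Fin n₁ × Fin n₂) (Fin n₁ × Fin n₂) F) *ᵥ X) := by
  obtain ⟨a, b, hab⟩ := hs
  obtain ⟨x₁, x₂, rfl⟩ := hX
  refine ⟨(a : Matrix (Fin n₁) (Fin n₁) F) *ᵥ x₁, (b : Matrix (Fin n₂) (Fin n₂) F) *ᵥ x₂, ?_⟩
  funext p
  rw [hab, Matrix.mulVec, dotProduct, Matrix.mulVec, dotProduct, Matrix.mulVec, dotProduct, Fintype.sum_prod_type,
    Finset.sum_mul_sum]
  refine Finset.sum_congr rfl fun c _ => Finset.sum_congr rfl fun d _ => ?_
  rw [Matrix.kroneckerMap_apply]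
  ring

theorem pure2_ne_zero {n₁ n₂ : ℕ} {u : Fin n₁ → F} {v : Fin n₂ → F} (hu : u ≠ 0) (hv : v ≠ 0) :
    (fun a : Fin n₁ × Fin n₂ => u a.1 * v a.2) ≠ 0 := by
  obtain ⟨i, hi⟩ := Function.ne_iff.mp hu
  obtain ⟨j, hj⟩ := Function.ne_iff.mp hv
  intro h0
  have := congrFun h0 (i, j)
  simp only [Pi.zero_apply, mul_eq_zero] at this
  exact this.elim hi hj

/-- Class 4 from a suitable pair of pure tensors. -/
theorem not_le_tensor_of [Finite F] {Q : QuadraticForm F (ι → F)} (hQ : (polarBilin Q).Nondegenerate)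
    (hn : 7 ≤ Fintype.card ι) {n₁ n₂ : ℕ} (e : ι ≃ Fin n₁ × Fin n₂) (P : Matrix.GeneralLinearGroup ι F)
    {f₁ : (Fin n₁ → F) → (Fin n₁ → F) → F} {f₂ : (Fin n₂ → F) → (Fin n₂ → F) → F} (hf₁ : IsBilinearForm f₁)
    (hf₂ : IsBilinearForm f₂) (hform : IsTensorFormStructure id (QuadraticMap.polar ⇑Q) f₁ f₂ e P)
    {u u' : Fin n₁ → F} {v v' : Fin n₂ → F} (hu : Indep2 u u') (hv : Indep2 v v')
    (h1 : Q ((P : Matrix ι ι F) *ᵥ ((fun a : Fin n₁ × Fin n₂ => u a.1 * v a.2) ∘ e)) = 0)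
    (h2 : Q ((P : Matrix ι ι F) *ᵥ ((fun a : Fin n₁ × Fin n₂ => u' a.1 * v' a.2) ∘ e)) = 0)
    (h3 : f₁ u u' * f₂ v v' = 0) : ¬ omegaGL ⇑Q ≤ tensorProductSubgroup n₁ n₂ e P := by
  obtain ⟨c, -, hc⟩ := hform
  have hnp : ¬ Pure2 (fun a : Fin n₁ × Fin n₂ => u a.1 * v a.2 + u' a.1 * v' a.2) := by
    rintro ⟨y, z, hyz⟩
    exact nonpure hu hv (y := y) (z := z) fun a b => congrFun hyz (a, b)
  refine not_le_of_pure hQ hn e P (kroneckerSubgroup n₁ n₂ F) Pure2 (fun s hs X hX => pure2_action s hs X hX)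
    (fun a => u a.1 * v a.2) (fun a => u a.1 * v a.2 + u' a.1 * v' a.2) ⟨u, v, rfl⟩
    (pure2_ne_zero hu.left_ne hv.left_ne) ?_ hnp h1 ?_
  · intro h0
    apply hnp
    rw [h0]
    exact ⟨0, 0, by funext a; simp⟩
  · have h4 : (fun a : Fin n₁ × Fin n₂ => u a.1 * v a.2 + u' a.1 * v' a.2) ∘ e
        = (fun a : Fin n₁ × Fin n₂ => u a.1 * v a.2) ∘ e + (fun a : Fin n₁ × Fin n₂ => u' a.1 * v' a.2) ∘ e := rfl
    rw [h4, Matrix.mulVec_add, qadd, h1, h2, hc, form_pure2 hf₁ hf₂, h3]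
    simp

theorem q_of_polar {Q : QuadraticForm F (ι → F)} (h2 : (2 : F) ≠ 0) {x : ι → F} (h : polar Q x x = 0) : Q x = 0 := by
  rw [pself] at h
  exact (mul_eq_zero.mp h).resolve_left h2

/-- Class 4, symmetric forms. -/
theorem not_le_tensor_symm [Finite F] {Q : QuadraticForm F (ι → F)} (hQ : (polarBilin Q).Nondegenerate)
    (hn : 7 ≤ Fintype.card ι) (h2 : (2 : F) ≠ 0) {n₁ n₂ : ℕ} (h₁ : 3 ≤ n₁) (h₂ : 3 ≤ n₂) (e : ι ≃ Fin n₁ × Fin n₂)
    (P : Matrix.GeneralLinearGroup ι F)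
    {f₁ : (Fin n₁ → F) → (Fin n₁ → F) → F} {f₂ : (Fin n₂ → F) → (Fin n₂ → F) → F} (hf₁ : IsSymmetricForm f₁)
    (hf₂ : IsSymmetricForm f₂) (hform : IsTensorFormStructure id (QuadraticMap.polar ⇑Q) f₁ f₂ e P) :
    ¬ omegaGL ⇑Q ≤ tensorProductSubgroup n₁ n₂ e P := by
  obtain ⟨u, hu0, hu⟩ := exists_iso_sym h2 h₁ hf₁
  obtain ⟨u', huu', hind⟩ := exists_perp_indep h₁ hf₁.bilinear hu0
  obtain ⟨v', hv0, hv'⟩ := exists_iso_sym h2 h₂ hf₂
  obtain ⟨v, hind'⟩ := exists_indep (by omega) hv0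
  have hc := hform
  obtain ⟨c, -, hc⟩ := hc
  refine not_le_tensor_of hQ hn e P hf₁.bilinear hf₂.bilinear hform hind hind'.symm ?_ ?_ (by rw [huu', zero_mul])
  · apply q_of_polar h2
    rw [hc, form_pure2 hf₁.bilinear hf₂.bilinear, hu]; simp
  · apply q_of_polar h2
    rw [hc, form_pure2 hf₁.bilinear hf₂.bilinear, hv']; simp

/-- Class 4, symplectic forms. -/
theorem not_le_tensor_sympl [Finite F] {Q : QuadraticForm F (ι → F)} (hQ : (polarBilin Q).Nondegenerate)
    (hn : 7 ≤ Fintype.card ι) {n₁ n₂ : ℕ} (h₁ : 2 ≤ n₁) (h₂ : 3 ≤ n₂) (e : ι ≃ Fin n₁ × Fin n₂)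
    (P : Matrix.GeneralLinearGroup ι F)
    {f₁ : (Fin n₁ → F) → (Fin n₁ → F) → F} {f₂ : (Fin n₂ → F) → (Fin n₂ → F) → F} (hf₁ : IsSymplecticForm f₁)
    (hf₂ : IsSymplecticForm f₂) (hform : IsTensorFormStructure id (QuadraticMap.polar ⇑Q) f₁ f₂ e P)
    (hpure : ∀ (x₁ : Fin n₁ → F) (x₂ : Fin n₂ → F),
        Q ((P : Matrix ι ι F) *ᵥ ((fun a : Fin n₁ × Fin n₂ => x₁ a.1 * x₂ a.2) ∘ e)) = 0) :
    ¬ omegaGL ⇑Q ≤ tensorProductSubgroup n₁ n₂ e P := by
  have hone : ∀ n : ℕ, 0 < n → ∃ u : Fin n → F, u ≠ 0 := by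
    intro n hn
    exact ⟨fun _ => 1, fun h0 => one_ne_zero (congrFun h0 ⟨0, hn⟩)⟩
  obtain ⟨u, hu⟩ := hone n₁ (by omega)
  obtain ⟨v, hv⟩ := hone n₂ (by omega)
  obtain ⟨u', hind⟩ := exists_indep h₁ hu
  obtain ⟨v', hvv', hind'⟩ := exists_perp_indep h₂ hf₂.bilinear hv
  exact not_le_tensor_of hQ hn e P hf₁.bilinear hf₂.bilinear hform hind hind' (hpure u v) (hpure u' v')
    (by rw [hvv', mul_zero])

/-! ### Class 7 -/

/-- Pure tensors with `t` factors. -/
def PureT {k t : ℕ} (X : (Fin t → Fin k) → F) : Prop := ∃ x : Fin t → Fin k → F, X = pt x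

theorem pureT_action {k t : ℕ} (s : Matrix.GeneralLinearGroup (Fin t → Fin k) F)
    (hs : s ∈ tensorWreathStandard k t F) (X : (Fin t → Fin k) → F) (hX : PureT X) :
    PureT ((s : Matrix (Fin t → Fin k) (Fin t → Fin k) F) *ᵥ X) := by
  obtain ⟨σ, gs, hgs⟩ := tensorWreathStandard_form k t s hs
  obtain ⟨x, rfl⟩ := hX
  exact ⟨_, mulVec_pt _ σ gs hgs x⟩

theorem nonpureT {k t : ℕ} {x x' : Fin t → Fin k → F} {i j : Fin t} (hij : i ≠ j) (hi : Indep2 (x i) (x' i))
    (hj : Indep2 (x j) (x' j)) (hne : ∀ l, x l ≠ 0) (heq : ∀ l, l ≠ i → l ≠ j → x l = x' l) :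
    ¬ PureT (pt x + pt x') := by
  rintro ⟨y, hy⟩
  have h : ∀ i, ∃ s, x i s ≠ 0 := fun i => Function.ne_iff.mp (hne i)
  choose s hs using h
  have hev : ∀ (z : Fin t → Fin k → F) (a b : Fin k), pt z (Function.update (Function.update s i a) j b)
      = z i a * z j b * ∏ l ∈ (Finset.univ.erase j).erase i, z l (s l) := by
    intro z a b
    rw [pt, ← Finset.mul_prod_erase Finset.univ _ (Finset.mem_univ j), Function.update_self,
      ← Finset.mul_prod_erase (Finset.univ.erase j) _ (Finset.mem_erase.mpr ⟨hij, Finset.mem_univ i⟩),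
      Function.update_of_ne hij, Function.update_self]
    rw [← mul_assoc, mul_comm (z j b)]
    congr 1
    refine Finset.prod_congr rfl fun l hl => ?_
    rw [Finset.mem_erase, Finset.mem_erase] at hl
    rw [Function.update_of_ne hl.2.1, Function.update_of_ne hl.1]
  obtain ⟨C, hC⟩ : ∃ C, C = ∏ l ∈ (Finset.univ.erase j).erase i, x l (s l) := ⟨_, rfl⟩
  have hC0 : C ≠ 0 := by rw [hC]; exact Finset.prod_ne_zero_iff.mpr fun l _ => hs l
  have hC' : C = ∏ l ∈ (Finset.univ.erase j).erase i, x' l (s l) := by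
    rw [hC]
    refine Finset.prod_congr rfl fun l hl => ?_
    rw [Finset.mem_erase, Finset.mem_erase] at hl
    rw [heq l hl.1 hl.2.1]
  refine nonpure hi hj (y := y i)
    (z := fun b => y j b * (∏ l ∈ (Finset.univ.erase j).erase i, y l (s l)) * C⁻¹) fun a b => ?_
  have h1 := congrFun hy (Function.update (Function.update s i a) j b)
  rw [Pi.add_apply, hev, hev, hev, ← hC, ← hC'] at h1
  field_simp
  linear_combination h1

/-- Class 7 from a suitable pair of pure tensors. -/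
theorem not_le_wreath_of [Finite F] {Q : QuadraticForm F (ι → F)} (hQ : (polarBilin Q).Nondegenerate)
    (hn : 7 ≤ Fintype.card ι) {k t : ℕ} (e : ι ≃ (Fin t → Fin k)) (P : Matrix.GeneralLinearGroup ι F)
    {f₁ : (Fin k → F) → (Fin k → F) → F} (hf₁ : IsBilinearForm f₁)
    (hform : IsTensorPowerFormStructure id (QuadraticMap.polar ⇑Q) f₁ e P)
    {x x' : Fin t → Fin k → F} {i j : Fin t} (hij : i ≠ j) (hi : Indep2 (x i) (x' i))
    (hj : Indep2 (x j) (x' j)) (hne : ∀ l, x l ≠ 0) (heq : ∀ l, l ≠ i → l ≠ j → x l = x' l)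
    (h1 : Q ((P : Matrix ι ι F) *ᵥ (pt x ∘ e)) = 0) (h2 : Q ((P : Matrix ι ι F) *ᵥ (pt x' ∘ e)) = 0)
    (h3 : ∏ i, f₁ (x i) (x' i) = 0) : ¬ omegaGL ⇑Q ≤ tensorWreathSubgroup k t e P := by
  obtain ⟨c, -, hc⟩ := hform
  have hnp := nonpureT hij hi hj hne heq
  refine not_le_of_pure hQ hn e P (tensorWreathStandard k t F) PureT (fun s hs X hX => pureT_action s hs X hX)
    (pt x) (pt x + pt x') ⟨x, rfl⟩ (pt_ne_zero x hne) ?_ hnp h1 ?_
  · intro h0
    apply hnp
    rw [h0]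
    refine ⟨fun _ => 0, ?_⟩
    funext a
    rw [pt, Pi.zero_apply]
    exact (Finset.prod_eq_zero (Finset.mem_univ i) rfl).symm
  · have h4 : (pt x + pt x') ∘ e = pt x ∘ e + pt x' ∘ e := rfl
    rw [h4, Matrix.mulVec_add, qadd, h1, h2, hc, form_pt hf₁, h3]
    simp

/-- Class 7, symmetric forms. -/
theorem not_le_wreath_symm [Finite F] {Q : QuadraticForm F (ι → F)} (hQ : (polarBilin Q).Nondegenerate)
    (hn : 7 ≤ Fintype.card ι) (h2 : (2 : F) ≠ 0) {k t : ℕ} (hk : 3 ≤ k) (ht : 2 ≤ t) (e : ι ≃ (Fin t → Fin k))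
    (P : Matrix.GeneralLinearGroup ι F) {f₁ : (Fin k → F) → (Fin k → F) → F} (hf₁ : IsSymmetricForm f₁)
    (hform : IsTensorPowerFormStructure id (QuadraticMap.polar ⇑Q) f₁ e P) :
    ¬ omegaGL ⇑Q ≤ tensorWreathSubgroup k t e P := by
  obtain ⟨u, hu0, hu⟩ := exists_iso_sym h2 hk hf₁
  obtain ⟨w, huw, hind⟩ := exists_perp_indep hk hf₁.bilinear hu0
  have hwu : f₁ w u = 0 := by rw [hf₁.symm]; exact huw
  have hc := hform
  obtain ⟨c, -, hc⟩ := hc
  obtain ⟨i, hi⟩ : ∃ i : Fin t, i = ⟨0, by omega⟩ := ⟨_, rfl⟩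
  obtain ⟨j, hj⟩ : ∃ j : Fin t, j = ⟨1, by omega⟩ := ⟨_, rfl⟩
  have hij : i ≠ j := by rw [hi, hj]; simp
  -- x = (u, w, u, ..., u), x' = (w, u, u, ..., u)
  refine not_le_wreath_of hQ hn e P hf₁.bilinear hform (x := Function.update (fun _ => u) j w)
    (x' := Function.update (fun _ => u) i w) hij ?_ ?_ ?_ ?_ ?_ ?_ ?_
  · rw [Function.update_of_ne hij, Function.update_self]; exact hind
  · rw [Function.update_self, Function.update_of_ne hij.symm]; exact hind.symm
  · intro l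
    by_cases hl : l = j
    · rw [hl, Function.update_self]; exact hind.symm.left_ne
    · rw [Function.update_of_ne hl]; exact hu0
  · intro l h1 h2
    rw [Function.update_of_ne h1, Function.update_of_ne h2]
  · apply q_of_polar h2
    rw [hc, form_pt hf₁.bilinear, Finset.prod_eq_zero (Finset.mem_univ i), mul_zero]
    rw [Function.update_of_ne hij, hu]
  · apply q_of_polar h2
    rw [hc, form_pt hf₁.bilinear, Finset.prod_eq_zero (Finset.mem_univ j), mul_zero]
    rw [Function.update_of_ne hij.symm, hu]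
  · rw [Finset.prod_eq_zero (Finset.mem_univ i)]
    rw [Function.update_of_ne hij, Function.update_self, huw]

/-- Class 7, symplectic forms. -/
theorem not_le_wreath_sympl [Finite F] {Q : QuadraticForm F (ι → F)} (hQ : (polarBilin Q).Nondegenerate)
    (hn : 7 ≤ Fintype.card ι) {k t : ℕ} (ht : 2 ≤ t) (e : ι ≃ (Fin t → Fin k))
    (P : Matrix.GeneralLinearGroup ι F) {f₁ : (Fin k → F) → (Fin k → F) → F} (hf₁ : IsSymplecticForm f₁)
    (hform : IsTensorPowerFormStructure id (QuadraticMap.polar ⇑Q) f₁ e P)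
    (hpure : ∀ x : Fin t → Fin k → F, Q ((P : Matrix ι ι F) *ᵥ ((fun a : Fin t → Fin k => ∏ i, x i (a i)) ∘ e)) = 0) :
    ¬ omegaGL ⇑Q ≤ tensorWreathSubgroup k t e P := by
  have hcard : Fintype.card ι = k ^ t := by simpa using Fintype.card_congr e
  have hk : 2 ≤ k := by
    by_contra hk
    have : k ^ t ≤ 1 := by
      rcases Nat.lt_or_ge k 1 with h | h
      · have : k = 0 := by omega
        rw [this, zero_pow (by omega)]; omega
      · have : k = 1 := by omega
        rw [this, one_pow]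
    omega
  have hone : (fun _ : Fin k => (1 : F)) ≠ 0 := by
    intro h0
    exact one_ne_zero (congrFun h0 ⟨0, by omega⟩)
  obtain ⟨u, hu⟩ : ∃ u : Fin k → F, u = fun _ => 1 := ⟨_, rfl⟩
  rw [← hu] at hone
  obtain ⟨w', hind'⟩ := exists_indep hk hone
  obtain ⟨w, hind, hw⟩ : ∃ w, Indep2 u w ∧ (t = 2 → f₁ u w = 0) := by
    by_cases ht2 : t = 2
    · have hk3 : 3 ≤ k := by
        by_contra hk3
        have : k = 2 := by omega
        rw [this, ht2] at hcard
        omega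
      obtain ⟨w, h1, h2⟩ := exists_perp_indep hk3 hf₁.bilinear hone
      exact ⟨w, h2, fun _ => h1⟩
    · exact ⟨w', hind', fun h => absurd h ht2⟩
  obtain ⟨i, hi⟩ : ∃ i : Fin t, i = ⟨0, by omega⟩ := ⟨_, rfl⟩
  obtain ⟨j, hj⟩ : ∃ j : Fin t, j = ⟨1, by omega⟩ := ⟨_, rfl⟩
  have hij : i ≠ j := by rw [hi, hj]; simp
  refine not_le_wreath_of hQ hn e P hf₁.bilinear hform (x := fun _ => u)
    (x' := Function.update (Function.update (fun _ => u) i w) j w) hij ?_ ?_ (fun _ => hone) ?_ (hpure _) (hpure _) ?_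
  · rw [Function.update_of_ne hij, Function.update_self]; exact hind
  · rw [Function.update_self]; exact hind
  · intro l h1 h2
    rw [Function.update_of_ne h2, Function.update_of_ne h1]
  · by_cases ht2 : t = 2
    · rw [Finset.prod_eq_zero (Finset.mem_univ i)]
      rw [Function.update_of_ne hij, Function.update_self, hw ht2]
    · rw [Finset.prod_eq_zero (Finset.mem_univ (⟨2, by omega⟩ : Fin t))]
      rw [Function.update_of_ne (by rw [hj]; simp), Function.update_of_ne (by rw [hi]; simp)]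
      exact hf₁.alternating u

end Cfsg.Agent.AschCases.OrthNot
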