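import Mathlib
import Cfsg.Agent.AschCases.OrthNot.Basic

set_option autoImplicit false
set_option linter.unusedSectionVars false

/-!
Class 3: the commutator subgroup of an orthogonal group does not normalise an extension field.
-/

namespace Cfsg.Agent.AschCases.OrthNot

open QuadraticMap Cfsg.Agent.Orth Cfsg.Agent.OMax Cfsg.Geo
open scoped Matrix

variable {ι : Type} [Fintype ι] [DecidableEq ι] {F : Type*} [Field F]

/-- Common zero of few functionals. -/
theorem exists_common_zero {m : ℕ} (L : Fin m → ((ι → F) →ₗ[F] F)) (h : m < Fintype.card ι) :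
    ∃ y : ι → F, y ≠ 0 ∧ ∀ i, L i y = 0 := by
  have h1 : LinearMap.ker (LinearMap.pi L) ≠ ⊥ :=
    LinearMap.ker_ne_bot_of_finrank_lt (by
      rw [Module.finrank_fintype_fun_eq_card, Module.finrank_fintype_fun_eq_card, Fintype.card_fin]; exact h)
  obtain ⟨y, hy, hy0⟩ := (Submodule.ne_bot_iff _).mp h1
  refine ⟨y, hy0, fun i => ?_⟩
  have := congrFun (LinearMap.mem_ker.mp hy) i
  simpa using this

/-- A Siegel transformation normalising a field subalgebra centralises it. -/
theorem siegel_comm [Finite F] {Q : QuadraticForm F (ι → F)} (hn : 7 ≤ Fintype.card ι) {r : ℕ}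
    {K : Subalgebra F (Matrix ι ι F)} (hK : IsFieldSubalgebra r K) {a b : ι → F}
    {g : Matrix.GeneralLinearGroup ι F} (hg : g ∈ subalgebraNormalizer K)
    (hga : ∀ x, (g : Matrix ι ι F) *ᵥ x = x + polar Q x b • a - polar Q x a • b - (Q b * polar Q x a) • a)
    {k : Matrix ι ι F} (hk : k ∈ K) : (g : Matrix ι ι F) * k = k * (g : Matrix ι ι F) := by
  have hk' := (mem_subalgebraNormalizer.mp hg k).mp hk
  obtain ⟨k', hk'def⟩ : ∃ k', k' = (g : Matrix ι ι F) * k * ((g⁻¹ : Matrix.GeneralLinearGroup ι F) : Matrix ι ι F) :=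
    ⟨_, rfl⟩
  rw [← hk'def] at hk'
  have hfix : ∀ y, polar Q y a = 0 → polar Q y b = 0 → (g : Matrix ι ι F) *ᵥ y = y := by
    intro y h1 h2
    rw [hga, h1, h2]; simp
  obtain ⟨y, hy0, hy⟩ := exists_common_zero ![(polarBilin Q).flip a, (polarBilin Q).flip b,
    ((polarBilin Q).flip a).comp (Matrix.toLin' k), ((polarBilin Q).flip b).comp (Matrix.toLin' k)]
    (by omega : 4 < Fintype.card ι)
  have y1 : polar Q y a = 0 := by simpa using hy 0
  have y2 : polar Q y b = 0 := by simpa using hy 1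
  have y3 : polar Q (k *ᵥ y) a = 0 := by simpa using hy 2
  have y4 : polar Q (k *ᵥ y) b = 0 := by simpa using hy 3
  have hty := hfix y y1 y2
  have htiy : ((g⁻¹ : Matrix.GeneralLinearGroup ι F) : Matrix ι ι F) *ᵥ y = y := by
    conv_lhs => rw [← hty]
    rw [Matrix.mulVec_mulVec, ← Units.val_mul, inv_mul_cancel, Units.val_one, Matrix.one_mulVec]
  have h1 : k' *ᵥ y = k *ᵥ y := by
    rw [hk'def, ← Matrix.mulVec_mulVec, htiy, ← Matrix.mulVec_mulVec, hfix _ y3 y4]
  have h2 : k' = k := by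
    by_contra hne
    obtain ⟨z, hz, hz'⟩ := hK.inv (k' - k) (K.sub_mem hk' hk) (sub_ne_zero.mpr hne)
    have h4 : (k' - k) *ᵥ y = 0 := by rw [Matrix.sub_mulVec, h1, sub_self]
    have h5 : z * (k' - k) = 1 := by rw [hK.comm z hz _ (K.sub_mem hk' hk), hz']
    apply hy0
    have h6 : (z * (k' - k)) *ᵥ y = 0 := by rw [← Matrix.mulVec_mulVec, h4, Matrix.mulVec_zero]
    rwa [h5, Matrix.one_mulVec] at h6
  calc (g : Matrix ι ι F) * k = k' * (g : Matrix ι ι F) := by
        rw [hk'def, mul_assoc, mul_assoc, ← Units.val_mul, inv_mul_cancel, Units.val_one, mul_one]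
    _ = k * (g : Matrix ι ι F) := by rw [h2]

/-- Class 3. -/
theorem not_le_subalgebraNormalizer [Finite F] {Q : QuadraticForm F (ι → F)} (hQ : (polarBilin Q).Nondegenerate)
    (hn : 7 ≤ Fintype.card ι) {r : ℕ} (hr : 2 ≤ r) (K : Subalgebra F (Matrix ι ι F))
    (hK : IsFieldSubalgebra r K) : ¬ omegaGL ⇑Q ≤ subalgebraNormalizer K := by
  intro hle
  obtain ⟨e, f, hef⟩ := exists_hyp hQ hn
  have he0 : e 0 ≠ 0 := by
    intro h0
    have := hef.ef 0 0
    rw [h0, polar_zero_left] at this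
    simp at this
  have key : ∀ k ∈ K, ∃ c : F, k = c • (1 : Matrix ι ι F) := by
    intro k hk
    -- k e0 lies in the span of e0 and e j
    have h1 : ∀ j : Fin 3, j ≠ 0 → ∃ α β : F, k *ᵥ e 0 = α • e 0 + β • e j := by
      intro j hj
      obtain ⟨g, hg, hgx⟩ := exists_siegel hQ hn (hef.qe 0) (hef.ee 0 j)
      have h2 := siegel_comm hn hK (hle hg) hgx hk
      have h3 : (g : Matrix ι ι F) *ᵥ (k *ᵥ f j) = k *ᵥ ((g : Matrix ι ι F) *ᵥ f j) := by
        rw [Matrix.mulVec_mulVec, Matrix.mulVec_mulVec, h2]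
      have h4 : polar Q (f j) (e j) = 1 := by rw [hef.fe]; simp
      have h5 : polar Q (f j) (e 0) = 0 := by rw [hef.fe]; simp [hj]
      rw [hgx, hgx (f j), h4, h5, hef.qe j, one_smul, zero_smul, zero_mul, zero_mul, zero_smul, sub_zero, sub_zero,
        sub_zero, Matrix.mulVec_add, add_sub_assoc] at h3
      refine ⟨polar Q (k *ᵥ f j) (e j), - polar Q (k *ᵥ f j) (e 0), ?_⟩
      rw [← add_left_cancel h3, neg_smul, sub_eq_add_neg]
    obtain ⟨α, β, h2⟩ := h1 1 (by decide)
    obtain ⟨α', β', h3⟩ := h1 2 (by decide)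
    have hβ : β = 0 := by
      have h4 : polar Q (k *ᵥ e 0) (f 1) = β := by
        rw [h2, pal, psl, psl, hef.ef, hef.ef]; simp
      have h5 : polar Q (k *ᵥ e 0) (f 1) = 0 := by
        rw [h3, pal, psl, psl, hef.ef, hef.ef]; simp
      rw [← h4, h5]
    rw [hβ, zero_smul, add_zero] at h2
    refine ⟨α, ?_⟩
    by_contra hne
    have hcK : α • (1 : Matrix ι ι F) ∈ K := K.smul_mem K.one_mem α
    obtain ⟨z, hz, hz'⟩ := hK.inv (k - α • (1 : Matrix ι ι F)) (K.sub_mem hk hcK) (sub_ne_zero.mpr hne)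
    have h8 : (k - α • (1 : Matrix ι ι F)) *ᵥ e 0 = 0 := by
      rw [Matrix.sub_mulVec, h2, Matrix.smul_mulVec, Matrix.one_mulVec, sub_self]
    have h9 : z * (k - α • (1 : Matrix ι ι F)) = 1 := by rw [hK.comm z hz _ (K.sub_mem hk hcK), hz']
    apply he0
    have h10 : (z * (k - α • (1 : Matrix ι ι F))) *ᵥ e 0 = 0 := by
      rw [← Matrix.mulVec_mulVec, h8, Matrix.mulVec_zero]
    rwa [h9, Matrix.one_mulVec] at h10
  have h1 : (⊤ : Submodule F K) ≤ Submodule.span F {(1 : K)} := by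
    rintro ⟨k, hk⟩ -
    obtain ⟨c, hc⟩ := key k hk
    rw [Submodule.mem_span_singleton]
    exact ⟨c, Subtype.ext (by simp [hc])⟩
  have h2 : Module.finrank F K ≤ 1 := by
    rw [← finrank_top F K]
    refine (Submodule.finrank_mono h1).trans ?_
    refine (finrank_span_le_card _).trans ?_
    simp
  rw [hK.finrank_eq] at h2
  omega

end Cfsg.Agent.AschCases.OrthNot
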