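import Mathlib
import Cfsg.Agent.AschCases.OrthNot.Four
import Cfsg.Agent.AschCases.OrthNot.Three

set_option autoImplicit false
set_option linter.unusedSectionVars false

/-!
Class 5: the commutator subgroup of an orthogonal group is not realised over a proper subfield modulo scalars.
-/

namespace Cfsg.Agent.AschCases.OrthNot

open QuadraticMap Cfsg.Agent.Orth Cfsg.Agent.OMax Cfsg.Geo
open scoped Matrix Kronecker

variable {ι : Type} [Fintype ι] [DecidableEq ι] {F : Type*} [Field F]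

/-- The rank-two part of an element of the subfield subgroup is rational. -/
theorem subfield_rank2 [Finite F] (hn : 5 ≤ Fintype.card ι) (F₀ : Subfield F) (g : Matrix.GeneralLinearGroup ι F)
    (hg : g ∈ (Matrix.GeneralLinearGroup.map (F₀.subtype : F₀ →+* F)).range ⊔ scalars ι F) (a b α β : ι → F)
    (hM : ∀ i j, (g : Matrix ι ι F) i j = (1 : Matrix ι ι F) i j + (a i * β j - b i * α j)) :
    ∀ i j, a i * β j - b i * α j ∈ F₀ := by
  obtain ⟨g', hg', s, hs, hgs⟩ := Subgroup.mem_sup_of_normal_right.mp hg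
  obtain ⟨g₀, rfl⟩ := hg'
  obtain ⟨c, hc⟩ := (mem_scalars_iff s).mp hs
  have hent : ∀ x y : ι, (g : Matrix ι ι F) x y = (g₀ x y : F) * c := by
    intro x y
    rw [← hgs, Units.val_mul, hc, Matrix.mul_smul, Matrix.mul_one, Matrix.smul_apply, smul_eq_mul, mul_comm]
    rfl
  obtain ⟨τ, hτ, hτ0⟩ := exists_powHom F₀
  -- a common null vector
  obtain ⟨y, hy0, hy⟩ := exists_common_zero ![dotL α, dotL β, dotL (fun i => τ (α i)), dotL (fun i => τ (β i))]
    (by omega : 4 < Fintype.card ι)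
  have y1 : α ⬝ᵥ y = 0 := by simpa [dotL_apply] using hy 0
  have y2 : β ⬝ᵥ y = 0 := by simpa [dotL_apply] using hy 1
  have y3 : (fun i => τ (α i)) ⬝ᵥ y = 0 := by simpa [dotL_apply] using hy 2
  have y4 : (fun i => τ (β i)) ⬝ᵥ y = 0 := by simpa [dotL_apply] using hy 3
  obtain ⟨i, hi⟩ := Function.ne_iff.mp hy0
  have hc0 : (c : F) ≠ 0 := c.ne_zero
  have hτg : ∀ j, τ ((g : Matrix ι ι F) i j) = (τ c * (c : F)⁻¹) * (g : Matrix ι ι F) i j := by
    intro j
    rw [hent, map_mul, hτ0 _ (g₀ _ _).2]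
    field_simp
  have h1 : ∑ j, (g : Matrix ι ι F) i j * y j = y i := by
    simp only [hM, add_mul, sub_mul, Finset.sum_add_distrib, Finset.sum_sub_distrib, Matrix.one_apply, ite_mul, one_mul,
      zero_mul, Finset.sum_ite_eq, Finset.mem_univ, if_true, mul_assoc, ← Finset.mul_sum]
    rw [show ∑ j, β j * y j = 0 from y2, show ∑ j, α j * y j = 0 from y1]
    ring
  have h2 : ∑ j, τ ((g : Matrix ι ι F) i j) * y j = y i := by
    have h3 : ∀ j, τ ((g : Matrix ι ι F) i j) = (if i = j then 1 else 0)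
        + (τ (a i) * τ (β j) - τ (b i) * τ (α j)) := by
      intro j
      rw [hM, map_add, map_sub, map_mul, map_mul, Matrix.one_apply]
      split_ifs <;> simp
    simp only [h3, add_mul, sub_mul, Finset.sum_add_distrib, Finset.sum_sub_distrib,
      ite_mul, one_mul,
      zero_mul, Finset.sum_ite_eq, Finset.mem_univ, if_true, mul_assoc, ← Finset.mul_sum]
    rw [show ∑ j, τ (β j) * y j = 0 from y4, show ∑ j, τ (α j) * y j = 0 from y3]
    ring
  have h3 : (τ c * (c : F)⁻¹) * y i = y i := by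
    conv_lhs => rw [← h1]
    conv_rhs => rw [← h2]
    rw [Finset.mul_sum]
    refine Finset.sum_congr rfl fun j _ => ?_
    rw [hτg, ← mul_assoc]
  have h4 : τ c * (c : F)⁻¹ = 1 := by
    have : (τ c * (c : F)⁻¹) * y i = 1 * y i := by rw [h3, one_mul]
    exact mul_right_cancel₀ hi this
  have hcF : (c : F) ∈ F₀ := by
    apply mem_subfield_of_pow_card
    rw [← hτ]
    field_simp at h4
    exact h4
  intro i j
  have h5 := hM i j
  have h6 : a i * β j - b i * α j = (g₀ i j : F) * c - (1 : Matrix ι ι F) i j := by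
    rw [← hent, h5]; ring
  rw [h6]
  refine F₀.sub_mem (F₀.mul_mem (g₀ i j).2 hcF) ?_
  rw [Matrix.one_apply]
  split_ifs
  · exact F₀.one_mem
  · exact F₀.zero_mem

/-- Class 5. -/
theorem not_le_subfieldSubgroup [Finite F] {Q : QuadraticForm F (ι → F)} (hQ : (polarBilin Q).Nondegenerate)
    (hn : 7 ≤ Fintype.card ι) (F₀ : Subfield F) (hF₀ : F₀ ≠ ⊤) (P : Matrix.GeneralLinearGroup ι F) :
    ¬ omegaGL ⇑Q ≤ subfieldSubgroup F₀ P := by
  intro hle
  obtain ⟨e, f, hef⟩ := exists_hyp hQ hn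
  obtain ⟨α, hα⟩ := exists_dot ((polarBilin Q).flip (e 0))
  obtain ⟨β, hβ⟩ := exists_dot ((polarBilin Q).flip (e 1))
  have hα' : ∀ x, polar Q x (e 0) = α ⬝ᵥ x := hα
  have hβ' : ∀ x, polar Q x (e 1) = β ⬝ᵥ x := hβ
  -- coordinates
  obtain ⟨a, ha⟩ : ∃ a, a = ((P⁻¹ : Matrix.GeneralLinearGroup ι F) : Matrix ι ι F) *ᵥ e 0 := ⟨_, rfl⟩
  obtain ⟨b, hb⟩ : ∃ b, b = ((P⁻¹ : Matrix.GeneralLinearGroup ι F) : Matrix ι ι F) *ᵥ e 1 := ⟨_, rfl⟩
  have key : ∀ c : F, ∀ i j, c * (a i * (β ᵥ* (P : Matrix ι ι F)) j - b i * (α ᵥ* (P : Matrix ι ι F)) j) ∈ F₀ := by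
    intro c i j
    obtain ⟨g, hg, hgx⟩ := exists_siegel hQ hn (b := c • e 1) (hef.qe 0) (by rw [psr, hef.ee, mul_zero])
    obtain ⟨z, hz, hz'⟩ := Subgroup.mem_map.mp (hle hg)
    have h1 : z = P⁻¹ * g * P := by rw [← hz']; simp [mul_assoc]
    have h2 : ∀ x, (z : Matrix ι ι F) *ᵥ x = x + (c * ((β ᵥ* (P : Matrix ι ι F)) ⬝ᵥ x)) • a
        - (c * ((α ᵥ* (P : Matrix ι ι F)) ⬝ᵥ x)) • b := by
      intro x
      rw [h1, Units.val_mul, Units.val_mul, ← Matrix.mulVec_mulVec, ← Matrix.mulVec_mulVec, hgx, psr, qsmul, hef.qe,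
        mul_zero, zero_mul, zero_smul, sub_zero, Matrix.mulVec_sub, Matrix.mulVec_add, inv_mulVec_self,
        Matrix.mulVec_smul, Matrix.mulVec_smul, Matrix.mulVec_smul, ← ha, ← hb, hα', hβ', ← Matrix.dotProduct_mulVec,
        ← Matrix.dotProduct_mulVec, smul_smul, mul_comm c (α ⬝ᵥ _)]
    have h3 : ∀ i j, (z : Matrix ι ι F) i j = (1 : Matrix ι ι F) i j
        + ((c • a) i * (β ᵥ* (P : Matrix ι ι F)) j - (c • b) i * (α ᵥ* (P : Matrix ι ι F)) j) := by
      intro i j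
      have h4 := congrFun (h2 (Pi.single j 1)) i
      rw [Matrix.mulVec_single_one] at h4
      simp only [Matrix.col_apply, Pi.add_apply, Pi.sub_apply, Pi.smul_apply, smul_eq_mul, dotProduct_single, mul_one]
        at h4
      rw [h4, Matrix.one_apply, Pi.single_apply]
      simp only [Pi.smul_apply, smul_eq_mul]
      ring
    have h5 := subfield_rank2 (by omega) F₀ z hz _ _ _ _ h3 i j
    simp only [Pi.smul_apply, smul_eq_mul] at h5
    have h6 : c * (a i * (β ᵥ* (P : Matrix ι ι F)) j - b i * (α ᵥ* (P : Matrix ι ι F)) j)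
        = c * a i * (β ᵥ* (P : Matrix ι ι F)) j - c * b i * (α ᵥ* (P : Matrix ι ι F)) j := by ring
    rw [h6]
    exact h5
  -- a nonzero entry
  obtain ⟨i, j, hij⟩ : ∃ i j, a i * (β ᵥ* (P : Matrix ι ι F)) j - b i * (α ᵥ* (P : Matrix ι ι F)) j ≠ 0 := by
    by_contra hcon
    push Not at hcon
    -- evaluate at P⁻¹ f 1
    obtain ⟨x, hx⟩ : ∃ x, x = ((P⁻¹ : Matrix.GeneralLinearGroup ι F) : Matrix ι ι F) *ᵥ f 1 := ⟨_, rfl⟩
    have hPx : (P : Matrix ι ι F) *ᵥ x = f 1 := by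
      rw [hx, Matrix.mulVec_mulVec, ← Units.val_mul, mul_inv_cancel, Units.val_one, Matrix.one_mulVec]
    have h1 : (β ᵥ* (P : Matrix ι ι F)) ⬝ᵥ x = 1 := by
      rw [← Matrix.dotProduct_mulVec, hPx, ← hβ', hef.fe]; simp
    have h2 : (α ᵥ* (P : Matrix ι ι F)) ⬝ᵥ x = 0 := by
      rw [← Matrix.dotProduct_mulVec, hPx, ← hα', hef.fe]; simp
    have h3 : a = 0 := by
      funext i
      have h4 : ∑ j, (a i * (β ᵥ* (P : Matrix ι ι F)) j - b i * (α ᵥ* (P : Matrix ι ι F)) j) * x j = 0 :=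
        Finset.sum_eq_zero fun j _ => by rw [hcon, zero_mul]
      simp only [sub_mul, Finset.sum_sub_distrib, mul_assoc, ← Finset.mul_sum] at h4
      rw [show ∑ j, (β ᵥ* (P : Matrix ι ι F)) j * x j = 1 from h1,
        show ∑ j, (α ᵥ* (P : Matrix ι ι F)) j * x j = 0 from h2] at h4
      rw [Pi.zero_apply]
      linear_combination h4
    have h4 : e 0 = 0 := by
      have h5 : (P : Matrix ι ι F) *ᵥ a = e 0 := by
        rw [ha, Matrix.mulVec_mulVec, ← Units.val_mul, mul_inv_cancel, Units.val_one, Matrix.one_mulVec]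
      rw [← h5, h3, Matrix.mulVec_zero]
    have := hef.ef 0 0
    rw [h4, polar_zero_left] at this
    simp at this
  apply hF₀
  rw [eq_top_iff]
  intro c _
  have h1 := key 1 i j
  have h2 := key c i j
  rw [one_mul] at h1
  have h3 := F₀.mul_mem h2 (F₀.inv_mem h1)
  rwa [mul_assoc, mul_inv_cancel₀ hij, mul_one] at h3

end Cfsg.Agent.AschCases.OrthNot
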