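import Mathlib
import Cfsg.Agent.AschCases.OrthNot.Three
import Cfsg.Agent.AschCases.OrthNot.Four
import Cfsg.Agent.ClassO.Simple

set_option autoImplicit false
set_option linter.unusedSectionVars false

/-!
Class 6: the commutator subgroup of an orthogonal group over a field of odd characteristic does not normalise an
irreducible 2-group of similarities.
-/

namespace Cfsg.Agent.AschCases.OrthNot

open QuadraticMap Cfsg.Agent.Orth Cfsg.Agent.OMax Cfsg.Geo
open scoped Matrix commutatorElement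

variable {ι : Type} [Fintype ι] [DecidableEq ι] {F : Type*} [Field F]

theorem omegaGL_eq (Q : (ι → F) → F) :
    omegaGL Q = ⁅Cfsg.isometryGroup F Q, Cfsg.isometryGroup F Q⁆ := by
  rw [omegaGL, Cfsg.Omega, Cfsg.Agent.ClassO.map_subtype_comm]

theorem mem_isometryGroup {Q : (ι → F) → F} {g : Matrix.GeneralLinearGroup ι F} :
    g ∈ Cfsg.isometryGroup F Q ↔ ∀ v, Q ((g : Matrix ι ι F) *ᵥ v) = Q v := by
  constructor
  · intro h v
    exact h v v
  · intro h
    exact fun v _ => h v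

theorem mulVec_inv_self (P : Matrix.GeneralLinearGroup ι F) (x : ι → F) :
    (P : Matrix ι ι F) *ᵥ (((P⁻¹ : Matrix.GeneralLinearGroup ι F) : Matrix ι ι F) *ᵥ x) = x := by
  rw [Matrix.mulVec_mulVec, ← Units.val_mul, mul_inv_cancel, Units.val_one, Matrix.one_mulVec]

/-- Similarities normalise `Ω`. -/
theorem similarity_conj {Q : (ι → F) → F} {x : Matrix.GeneralLinearGroup ι F} (hx : x ∈ quadSimilarityGroup Q)
    {t : Matrix.GeneralLinearGroup ι F} (ht : t ∈ omegaGL Q) : x * t * x⁻¹ ∈ omegaGL Q := by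
  rw [omegaGL_eq] at ht ⊢
  have h1 : ∀ g ∈ Cfsg.isometryGroup F Q, x * g * x⁻¹ ∈ Cfsg.isometryGroup F Q := by
    intro g hg
    rw [mem_isometryGroup] at hg ⊢
    intro v
    obtain ⟨c, hc⟩ := hx
    obtain ⟨w, rfl⟩ : ∃ w, v = (x : Matrix ι ι F) *ᵥ w := ⟨_, (mulVec_inv_self x v).symm⟩
    rw [Units.val_mul, Units.val_mul, ← Matrix.mulVec_mulVec, inv_mulVec_self, ← Matrix.mulVec_mulVec, hc, hg, hc]
  have h2 : (⁅Cfsg.isometryGroup F Q, Cfsg.isometryGroup F Q⁆).map (MulAut.conj x).toMonoidHom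
      ≤ ⁅Cfsg.isometryGroup F Q, Cfsg.isometryGroup F Q⁆ := by
    rw [Subgroup.map_commutator]
    have h3 : (Cfsg.isometryGroup F Q).map (MulAut.conj x).toMonoidHom ≤ Cfsg.isometryGroup F Q := by
      rintro _ ⟨g, hg, rfl⟩
      exact h1 g hg
    exact Subgroup.commutator_mono h3 h3
  exact h2 ⟨t, ht, rfl⟩

theorem pow_eq_zero_iff_of_pos' {m : ℕ} {x : F} (h : x ^ m = 0) : x = 0 := by
  by_contra hx
  exact pow_ne_zero m hx h

/-- A normal 2-subgroup of `Ω` consists of scalars. -/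
theorem normal_two_scalar [Finite F] {Q : QuadraticForm F (ι → F)} (hQ : (polarBilin Q).Nondegenerate)
    (hn : 7 ≤ Fintype.card ι) (h2 : (2 : F) ≠ 0) (N : Subgroup (Matrix.GeneralLinearGroup ι F))
    (hNle : N ≤ omegaGL ⇑Q) (hN : ∀ g ∈ omegaGL ⇑Q, ∀ x ∈ N, g * x * g⁻¹ ∈ N) (hp : IsPGroup 2 N)
    {y : Matrix.GeneralLinearGroup ι F} (hy : y ∈ N) : ∃ c : F, ∀ v, (y : Matrix ι ι F) *ᵥ v = c • v := by
  have hn' : 7 ≤ Module.finrank F (ι → F) := by rwa [Module.finrank_fintype_fun_eq_card]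
  obtain ⟨e, f, hef⟩ := exists_hyp hQ hn
  have hR : RGrp Q = ⊤ := RGrp_eq_top hQ (Or.inr (by omega))
  have hH : Cfsg.Agent.ClassO.Hyp Q e f := ⟨hef.qe, hef.qf, hef.ee, hef.ff, hef.ef⟩
  have hcomm := Cfsg.Agent.ClassO.commutator_eq_EGrp hQ hR hH
  -- the subgroup of the abstract group
  obtain ⟨M, hM⟩ : ∃ M : Subgroup (commutator (OGrp Q)), ∀ h : commutator (OGrp Q),
      h ∈ M ↔ (((bridge Q).symm (h : OGrp Q) : ↥(Cfsg.isometryGroup F ⇑Q)) : Matrix.GeneralLinearGroup ι F) ∈ N :=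
    ⟨N.comap ((Cfsg.isometryGroup F ⇑Q).subtype.comp
      ((bridge Q).symm.toMonoidHom.comp (commutator (OGrp Q)).subtype)), fun h => Iff.rfl⟩
  have hMn : M.Normal := by
    refine ⟨fun n hn g => ?_⟩
    rw [hM] at hn ⊢
    have h1 : (((bridge Q).symm ((g * n * g⁻¹ : commutator (OGrp Q)) : OGrp Q) : ↥(Cfsg.isometryGroup F ⇑Q)) :
        Matrix.GeneralLinearGroup ι F)
        = ((bridge Q).symm (g : OGrp Q) : ↥(Cfsg.isometryGroup F ⇑Q))
          * ((bridge Q).symm (n : OGrp Q) : ↥(Cfsg.isometryGroup F ⇑Q))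
          * (((bridge Q).symm (g : OGrp Q) : ↥(Cfsg.isometryGroup F ⇑Q)) : Matrix.GeneralLinearGroup ι F)⁻¹ := by
      push_cast
      rw [map_mul, map_mul, map_inv]
      rfl
    rw [h1]
    refine hN _ ?_ _ hn
    rw [mem_omegaGL_iff, MulEquiv.apply_symm_apply]
    exact g.2
  by_contra hcon
  have htop : M = ⊤ := by
    refine Cfsg.Agent.ClassO.normal_eq_top hQ hR hH _ hcomm M hMn ?_
    intro hall
    apply hcon
    obtain ⟨y', hy'⟩ : ∃ y' : ↥(Cfsg.isometryGroup F ⇑Q), (y' : Matrix.GeneralLinearGroup ι F) = y :=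
      ⟨⟨y, omegaGL_le Q (hNle hy)⟩, rfl⟩
    have h1 : bridge Q y' ∈ commutator (OGrp Q) := by
      rw [← mem_omegaGL_iff, hy']; exact hNle hy
    obtain ⟨c, hc⟩ := hall ⟨bridge Q y', h1⟩ (by
      rw [hM]
      show (((bridge Q).symm (bridge Q y') : ↥(Cfsg.isometryGroup F ⇑Q)) : Matrix.GeneralLinearGroup ι F) ∈ N
      rw [MulEquiv.symm_apply_apply, hy']
      exact hy)
    refine ⟨c, fun v => ?_⟩
    rw [← hc v]
    show _ = (bridge Q y' : (ι → F) ≃ₗ[F] (ι → F)) v
    rw [bridge_apply, hy']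
  -- a Siegel transformation of 2-power order
  obtain ⟨g, hg, hgx⟩ := exists_siegel hQ hn (hef.qe 0) (hef.ee 0 1)
  have hgN : g ∈ N := by
    obtain ⟨g', hg'⟩ : ∃ g' : ↥(Cfsg.isometryGroup F ⇑Q), (g' : Matrix.GeneralLinearGroup ι F) = g :=
      ⟨⟨g, omegaGL_le Q hg⟩, rfl⟩
    have h1 : bridge Q g' ∈ commutator (OGrp Q) := by
      rw [← mem_omegaGL_iff, hg']; exact hg
    have h3 : (⟨bridge Q g', h1⟩ : commutator (OGrp Q)) ∈ M := by rw [htop]; trivial
    rw [hM] at h3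
    change (((bridge Q).symm (bridge Q g') : ↥(Cfsg.isometryGroup F ⇑Q)) : Matrix.GeneralLinearGroup ι F) ∈ N at h3
    rwa [MulEquiv.symm_apply_apply, hg'] at h3
  obtain ⟨m, hm⟩ := hp ⟨g, hgN⟩
  have hm' : g ^ 2 ^ m = 1 := by
    have := congrArg Subtype.val hm
    simpa using this
  have hpow : ∀ j : ℕ, ((g ^ j : Matrix.GeneralLinearGroup ι F) : Matrix ι ι F) *ᵥ f 1 = f 1 + (j : F) • e 0 := by
    intro j
    induction j with
    | zero => simp
    | succ j ih =>
      rw [pow_succ', Units.val_mul, ← Matrix.mulVec_mulVec, ih, hgx, pal, pal, psl, psl, hef.fe, hef.fe, hef.ee, hef.ee,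
        hef.qe, if_pos rfl, if_neg (by decide)]
      push_cast
      module
  have h3 := hpow (2 ^ m)
  rw [hm', Units.val_one, Matrix.one_mulVec] at h3
  have h4 : ((2 ^ m : ℕ) : F) • e 0 = 0 := by
    have := h3.symm
    rwa [add_eq_left] at this
  have h5 : e 0 ≠ 0 := by
    intro h0
    have := hef.ef 0 0
    rw [h0, polar_zero_left] at this
    simp at this
  rcases smul_eq_zero.mp h4 with h | h
  · push_cast at h
    exact h2 (pow_eq_zero_iff_of_pos' h)
  · exact h5 h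

/-- Class 6. -/
theorem not_le_symplType [Finite F] {Q : QuadraticForm F (ι → F)} (hQ : (polarBilin Q).Nondegenerate)
    (hn : 7 ≤ Fintype.card ι) (h2 : (2 : F) ≠ 0) (R : Subgroup (Matrix.GeneralLinearGroup ι F)) (hR : IsPGroup 2 R)
    (hirr : ActsIrreducibly (matrixSet R)) (hsim : R ≤ quadSimilarityGroup ⇑Q) :
    ¬ omegaGL ⇑Q ≤ subgroupNormalizer R := by
  intro hle
  have hn' : 7 ≤ Module.finrank F (ι → F) := by rwa [Module.finrank_fintype_fun_eq_card]
  obtain ⟨e, f, hef⟩ := exists_hyp hQ hn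
  have he0 : e 0 ≠ 0 := by
    intro h0
    have := hef.ef 0 0
    rw [h0, polar_zero_left] at this
    simp at this
  have hRt : RGrp Q = ⊤ := RGrp_eq_top hQ (Or.inr (by omega))
  have hH : Cfsg.Agent.ClassO.Hyp Q e f := ⟨hef.qe, hef.qf, hef.ee, hef.ff, hef.ef⟩
  have hcomm := Cfsg.Agent.ClassO.commutator_eq_EGrp hQ hRt hH
  have hle' : ∀ g ∈ omegaGL ⇑Q, ∀ x ∈ R, g * x * g⁻¹ ∈ R := by
    intro g hg x hx
    have h1 := hle hg
    rw [subgroupNormalizer, Subgroup.mem_normalizer_iff] at h1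
    exact (h1 x).mp hx
  have hN : ∀ y ∈ R ⊓ omegaGL ⇑Q, ∃ c : F, ∀ v, (y : Matrix ι ι F) *ᵥ v = c • v := fun y hy =>
    normal_two_scalar hQ hn h2 (R ⊓ omegaGL ⇑Q) inf_le_right
      (fun g hg x hx => ⟨hle' g hg x hx.1, (omegaGL ⇑Q).mul_mem ((omegaGL ⇑Q).mul_mem hg hx.2) ((omegaGL ⇑Q).inv_mem hg)⟩)
      (IsPGroup.to_le hR inf_le_left) hy
  have hall : ∀ x ∈ R, ∃ c : F, ∀ v, (x : Matrix ι ι F) *ᵥ v = c • v := by
    intro x hx
    -- x commutes with the Siegel transformations of pairs of singular vectors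
    have hcs : ∀ (a b : ι → F), Q a = 0 → Q b = 0 → ∀ t ∈ omegaGL ⇑Q,
        (∀ v, (t : Matrix ι ι F) *ᵥ v = v + polar Q v b • a - polar Q v a • b - (Q b * polar Q v a) • a) →
        ∀ v, (x : Matrix ι ι F) *ᵥ ((t : Matrix ι ι F) *ᵥ v) = (t : Matrix ι ι F) *ᵥ ((x : Matrix ι ι F) *ᵥ v) := by
      intro a b ha hb t ht htx
      have hmem : x * t * x⁻¹ * t⁻¹ ∈ R ⊓ omegaGL ⇑Q := by
        constructor
        · have h3 : x * t * x⁻¹ * t⁻¹ = x * (t * x⁻¹ * t⁻¹) := by group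
          rw [h3]; exact R.mul_mem hx (hle' _ ht _ (R.inv_mem hx))
        · exact (omegaGL ⇑Q).mul_mem (similarity_conj (hsim hx) ht) ((omegaGL ⇑Q).inv_mem ht)
      obtain ⟨c, hc⟩ := hN _ hmem
      have hxt : ∀ v, (x : Matrix ι ι F) *ᵥ ((t : Matrix ι ι F) *ᵥ v)
          = c • ((t : Matrix ι ι F) *ᵥ ((x : Matrix ι ι F) *ᵥ v)) := by
        intro v
        have h3 : x * t = x * t * x⁻¹ * t⁻¹ * (t * x) := by group
        rw [Matrix.mulVec_mulVec, ← Units.val_mul, h3, Units.val_mul, ← Matrix.mulVec_mulVec, hc, Units.val_mul,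
          ← Matrix.mulVec_mulVec]
      obtain ⟨y, hy0, hy⟩ := exists_common_zero ![(polarBilin Q).flip a, (polarBilin Q).flip b,
        ((polarBilin Q).flip a).comp (Matrix.toLin' (x : Matrix ι ι F)),
        ((polarBilin Q).flip b).comp (Matrix.toLin' (x : Matrix ι ι F))] (by omega : 4 < Fintype.card ι)
      have y1 : polar Q y a = 0 := by simpa using hy 0
      have y2 : polar Q y b = 0 := by simpa using hy 1
      have y3 : polar Q ((x : Matrix ι ι F) *ᵥ y) a = 0 := by simpa using hy 2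
      have y4 : polar Q ((x : Matrix ι ι F) *ᵥ y) b = 0 := by simpa using hy 3
      have h4 : (1 : F) • ((x : Matrix ι ι F) *ᵥ y) = c • ((x : Matrix ι ι F) *ᵥ y) := by
        have h5 := hxt y
        have h6 : (t : Matrix ι ι F) *ᵥ y = y := by rw [htx, y1, y2]; simp
        have h7 : (t : Matrix ι ι F) *ᵥ ((x : Matrix ι ι F) *ᵥ y) = (x : Matrix ι ι F) *ᵥ y := by
          rw [htx, y3, y4]; simp
        rw [h6, h7] at h5
        rw [one_smul]; exact h5
      have hxy : (x : Matrix ι ι F) *ᵥ y ≠ 0 := by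
        intro h0
        apply hy0
        rw [← inv_mulVec_self x y, h0, Matrix.mulVec_zero]
      have hc1 : c = 1 := (smul_left_injective F hxy h4).symm
      intro v
      rw [hxt, hc1, one_smul]
    -- x commutes with Ω
    have hcΩ : ∀ h ∈ commutator (OGrp Q), ∀ v, (x : Matrix ι ι F) *ᵥ ((h : (ι → F) ≃ₗ[F] (ι → F)) v)
        = (h : (ι → F) ≃ₗ[F] (ι → F)) ((x : Matrix ι ι F) *ᵥ v) := by
      rw [hcomm]
      intro h hh
      induction hh using Subgroup.closure_induction with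
      | mem h hh =>
        obtain ⟨a, b, ha, hab, hb, rfl⟩ := hh
        have h3 : eich Q a b ha hab ∈ commutator (OGrp Q) := eich_mem_comm hQ (by omega) ha hab
        obtain ⟨t, ht, htx⟩ := exists_omega h3
        intro v
        rw [← htx, ← htx]
        exact hcs a b ha hb t ht (fun v => by rw [htx, eich_apply]) v
      | one => intro v; rfl
      | mul g h _ _ ihg ihh =>
        intro v
        rw [coe_mul_apply, coe_mul_apply, ihg, ihh]
      | inv g _ ih =>
        intro v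
        have h3 := ih (((g⁻¹ : OGrp Q) : (ι → F) ≃ₗ[F] (ι → F)) v)
        rw [coe_apply_inv_self] at h3
        rw [h3, coe_inv_apply_self]
    -- eigenvector e 0
    have h1 : ∀ j : Fin 3, j ≠ 0 → ∃ α β : F, (x : Matrix ι ι F) *ᵥ e 0 = α • e 0 + β • e j := by
      intro j hj
      obtain ⟨g, hg, hgx⟩ := exists_siegel hQ hn (hef.qe 0) (hef.ee 0 j)
      have h3 := (hcs _ _ (hef.qe 0) (hef.qe j) g hg hgx (f j)).symm
      have h4 : polar Q (f j) (e j) = 1 := by rw [hef.fe]; simp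
      have h5 : polar Q (f j) (e 0) = 0 := by rw [hef.fe]; simp [hj]
      rw [hgx, hgx (f j), h4, h5, hef.qe j, one_smul, zero_smul, zero_mul, zero_mul, zero_smul, sub_zero, sub_zero,
        sub_zero, Matrix.mulVec_add, add_sub_assoc] at h3
      refine ⟨polar Q ((x : Matrix ι ι F) *ᵥ f j) (e j), - polar Q ((x : Matrix ι ι F) *ᵥ f j) (e 0), ?_⟩
      rw [← add_left_cancel h3, neg_smul, sub_eq_add_neg]
    obtain ⟨α, β, h3⟩ := h1 1 (by decide)
    obtain ⟨α', β', h4⟩ := h1 2 (by decide)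
    have hβ : β = 0 := by
      have h5 : polar Q ((x : Matrix ι ι F) *ᵥ e 0) (f 1) = β := by
        rw [h3, pal, psl, psl, hef.ef, hef.ef]; simp
      have h6 : polar Q ((x : Matrix ι ι F) *ᵥ e 0) (f 1) = 0 := by
        rw [h4, pal, psl, psl, hef.ef, hef.ef]; simp
      rw [← h5, h6]
    rw [hβ, zero_smul, add_zero] at h3
    refine ⟨α, ?_⟩
    -- the eigenspace is invariant
    obtain ⟨U, hU⟩ : ∃ U : Submodule F (ι → F), ∀ v, v ∈ U ↔ (x : Matrix ι ι F) *ᵥ v = α • v :=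
      ⟨LinearMap.ker (Matrix.toLin' ((x : Matrix ι ι F) - α • (1 : Matrix ι ι F))), fun v => by
        rw [LinearMap.mem_ker, Matrix.toLin'_apply, Matrix.sub_mulVec, Matrix.smul_mulVec, Matrix.one_mulVec, sub_eq_zero]⟩
    have hUtop : U = ⊤ := by
      by_contra hne
      refine not_le_subspaceStabilizer hQ hn U ?_ hne ?_
      · rw [Submodule.ne_bot_iff]
        exact ⟨e 0, (hU _).mpr h3, he0⟩
      · have hinv : ∀ g ∈ omegaGL ⇑Q, ∀ v ∈ U, (g : Matrix ι ι F) *ᵥ v ∈ U := by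
          intro g hg v hv
          rw [hU] at hv ⊢
          obtain ⟨g', hg'⟩ : ∃ g' : ↥(Cfsg.isometryGroup F ⇑Q), (g' : Matrix.GeneralLinearGroup ι F) = g :=
            ⟨⟨g, omegaGL_le Q hg⟩, rfl⟩
          have h5 : bridge Q g' ∈ commutator (OGrp Q) := by
            rw [← mem_omegaGL_iff, hg']; exact hg
          have h6 := hcΩ _ h5 v
          rw [bridge_apply, bridge_apply, hg', hv, Matrix.mulVec_smul] at h6
          exact h6
        intro g hg
        rw [mem_subspaceStabilizer]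
        intro v
        refine ⟨fun hv => hinv g hg v hv, fun hv => ?_⟩
        have := hinv g⁻¹ ((omegaGL ⇑Q).inv_mem hg) _ hv
        rwa [inv_mulVec_self] at this
    intro v
    exact (hU v).mp (by rw [hUtop]; trivial)
  have hne : Nonempty ι := Fintype.card_pos_iff.mp (by omega)
  obtain ⟨i⟩ := hne
  have hirr' := hirr (Submodule.span F {(Pi.single i 1 : ι → F)}) (by
    rintro s ⟨g, hg, rfl⟩
    obtain ⟨c, hc⟩ := hall g hg
    rw [Submodule.map_span_le]
    rintro m hm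
    rw [Set.mem_singleton_iff] at hm
    rw [hm, Matrix.toLin'_apply]
    show (g : Matrix ι ι F) *ᵥ _ ∈ _
    rw [hc]
    exact Submodule.smul_mem _ _ (Submodule.mem_span_singleton_self _))
  rcases hirr' with h | h
  · rw [Submodule.span_singleton_eq_bot] at h
    have := congrFun h i
    simp at this
  · have h1 := finrank_span_singleton (K := F) (v := (Pi.single i 1 : ι → F)) (by
      intro h2; have := congrFun h2 i; simp at this)
    rw [h, finrank_top, Module.finrank_fintype_fun_eq_card] at h1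
    omega

end Cfsg.Agent.AschCases.OrthNot
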