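import Mathlib
import Cfsg.Agent.AschCases.OrthNot.Basic

set_option autoImplicit false
set_option linter.unusedSectionVars false

/-!
Class 2: the commutator subgroup of an orthogonal group preserves no orthogonal decomposition and no decomposition into
two totally singular subspaces.
-/

namespace Cfsg.Agent.AschCases.OrthNot

open QuadraticMap Cfsg.Agent.Orth Cfsg.Agent.OMax Cfsg.Geo
open scoped Matrix

variable {ι : Type} [Fintype ι] [DecidableEq ι] {F : Type*} [Field F]

open Classical in
/-- The members of the decomposition which are not orthogonal to `v`. -/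
noncomputable def wt (Q : QuadraticForm F (ι → F)) {t : ℕ} (D : Fin t → Submodule F (ι → F)) (v : ι → F) :
    Finset (Fin t) :=
  Finset.univ.filter fun i => ∃ d ∈ D i, polar Q v d ≠ 0

theorem mem_wt {Q : QuadraticForm F (ι → F)} {t : ℕ} {D : Fin t → Submodule F (ι → F)} {v : ι → F} {i : Fin t} :
    i ∈ wt Q D v ↔ ∃ d ∈ D i, polar Q v d ≠ 0 := by
  classical
  rw [wt, Finset.mem_filter]
  simp

theorem not_le_of_weights [Finite F] {Q : QuadraticForm F (ι → F)} (hQ : (polarBilin Q).Nondegenerate)
    (hn : 7 ≤ Fintype.card ι) {t : ℕ} (D : Fin t → Submodule F (ι → F)) {v w : ι → F} (hv : v ≠ 0) (hw : w ≠ 0)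
    (hvq : Q v = 0) (hwq : Q w = 0) (hne : (wt Q D v).card ≠ (wt Q D w).card) :
    ¬ omegaGL ⇑Q ≤ decompositionStabilizer D := by
  intro hle
  obtain ⟨g, hg, hgv⟩ := omega_trans hQ hn hv hw (by rw [hvq, hwq])
  obtain ⟨σ, hσ⟩ := hle hg
  apply hne
  have key : wt Q D w = (wt Q D v).map σ.toEmbedding := by
    ext i
    rw [Finset.mem_map_equiv, mem_wt, mem_wt]
    have h1 := hσ (σ.symm i)
    rw [Equiv.apply_symm_apply] at h1
    rw [← h1]
    constructor
    · rintro ⟨d, hd, hd'⟩
      obtain ⟨y, hy, rfl⟩ := Submodule.mem_map.mp hd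
      refine ⟨y, hy, ?_⟩
      rw [Matrix.toLin'_apply] at hd'
      rwa [← hgv, omega_polar hg] at hd'
    · rintro ⟨y, hy, hy'⟩
      refine ⟨_, Submodule.mem_map_of_mem hy, ?_⟩
      rw [Matrix.toLin'_apply, ← hgv, omega_polar hg]
      exact hy'
  rw [key, Finset.card_map]

/-- Two totally singular halves. -/
theorem not_le_decomp_singular [Finite F] {Q : QuadraticForm F (ι → F)} (hQ : (polarBilin Q).Nondegenerate)
    (hn : 7 ≤ Fintype.card ι) {k : ℕ} (D : Fin 2 → Submodule F (ι → F)) (hk : 2 * k = Fintype.card ι)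
    (hD : IsMDecomposition k D) (hs : ∀ i, IsTotallySingularQuad Q (D i)) :
    ¬ omegaGL ⇑Q ≤ decompositionStabilizer D := by
  have htop : D 0 ⊔ D 1 = ⊤ := by
    rw [eq_top_iff, ← hD.iSup_eq_top, iSup_le_iff]
    intro i
    fin_cases i
    · exact le_sup_left
    · exact le_sup_right
  have hps : ∀ i, ∀ x ∈ D i, ∀ y ∈ D i, polar Q x y = 0 := fun i x hx y hy => by
    have := le_perp_of_singular (hs i) hx
    rw [pc]
    exact this y hy
  have hne : ∀ i, D i ≠ ⊥ := by
    intro i h0
    have h1 := hD.finrank_eq i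
    rw [h0, finrank_bot] at h1
    omega
  -- a nonzero vector of `D i` is not orthogonal to `D j`
  have hno : ∀ i j : Fin 2, i ≠ j → ∀ x ∈ D i, x ≠ 0 → ∃ d ∈ D j, polar Q x d ≠ 0 := by
    intro i j hij x hx hx0
    by_contra hcon
    push Not at hcon
    apply hx0
    apply eq_zero_of_polar hQ
    intro y
    have hy : y ∈ D 0 ⊔ D 1 := by rw [htop]; trivial
    obtain ⟨a, ha, b, hb, rfl⟩ := Submodule.mem_sup.mp hy
    rw [par]
    have h2 : ∀ l, ∀ c ∈ D l, polar Q x c = 0 := by
      intro l c hc
      by_cases hl : l = i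
      · subst hl; exact hps l x hx c hc
      · have : l = j := by omega
        subst this; exact hcon c hc
    rw [h2 0 a ha, h2 1 b hb, add_zero]
  obtain ⟨u, hu, hu0⟩ := (Submodule.ne_bot_iff _).mp (hne 0)
  obtain ⟨u', hu', hu'0, huu'⟩ : ∃ u' ∈ D 1, u' ≠ 0 ∧ polar Q u u' = 0 := by
    by_contra hcon
    push Not at hcon
    have hinj : Function.Injective ((polarBilin Q u).domRestrict (D 1)) := by
      rw [injective_iff_map_eq_zero]
      rintro ⟨y, hy⟩ h0
      by_contra hne
      exact hcon y hy (fun h => hne (Subtype.ext h)) h0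
    have h1 := LinearMap.finrank_le_finrank_of_injective hinj
    rw [hD.finrank_eq, Module.finrank_self] at h1
    omega
  have hq0 : Q (u + u') = 0 := by rw [qadd, hs 0 u hu, hs 1 u' hu', huu']; simp
  have hw1 : (0 : Fin 2) ∈ wt Q D (u + u') := by
    obtain ⟨d, hd, hd'⟩ := hno 1 0 (by decide) u' hu' hu'0
    rw [mem_wt]
    exact ⟨d, hd, by rwa [pal, hps 0 u hu d hd, zero_add]⟩
  have hw2 : (1 : Fin 2) ∈ wt Q D (u + u') := by
    obtain ⟨d, hd, hd'⟩ := hno 0 1 (by decide) u hu hu0
    rw [mem_wt]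
    exact ⟨d, hd, by rwa [pal, hps 1 u' hu' d hd, add_zero]⟩
  have huu0 : u + u' ≠ 0 := by
    intro h0
    rw [mem_wt, h0] at hw1
    obtain ⟨d, -, hd'⟩ := hw1
    rw [polar_zero_left] at hd'
    exact hd' rfl
  refine not_le_of_weights hQ hn D hu0 huu0 (hs 0 u hu) hq0 ?_
  have h1 : (wt Q D u).card ≤ 1 := by
    rw [Finset.card_le_one]
    intro a ha b hb
    have h3 : ∀ c ∈ wt Q D u, c = 1 := by
      intro c hc
      by_contra hc1
      have : c = 0 := by omega
      subst this
      obtain ⟨d, hd, hd'⟩ := mem_wt.mp hc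
      exact hd' (hps 0 u hu d hd)
    rw [h3 a ha, h3 b hb]
  have h2 : 1 < (wt Q D (u + u')).card := Finset.one_lt_card.mpr ⟨0, hw1, 1, hw2, by decide⟩
  omega

theorem finrank_sup_le {t k : ℕ} (D : Fin t → Submodule F (ι → F)) (hD : ∀ i, Module.finrank F (D i) = k)
    (A : Finset (Fin t)) : Module.finrank F (A.sup D : Submodule F (ι → F)) ≤ k * A.card := by
  classical
  induction A using Finset.induction_on with
  | empty => simp
  | insert a A ha ih =>
    rw [Finset.sup_insert, Finset.card_insert_of_notMem ha]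
    refine (Submodule.finrank_add_le_finrank_add_finrank _ _).trans ?_
    rw [hD, mul_add, mul_one]
    omega

/-- Orthogonal decompositions. -/
theorem not_le_decomp_orth [Finite F] {Q : QuadraticForm F (ι → F)} (hQ : (polarBilin Q).Nondegenerate)
    (hn : 7 ≤ Fintype.card ι) {t k : ℕ} (D : Fin t → Submodule F (ι → F))
    (hD : IsOrthogonalMDecomposition (⇑Q) k D) :
    ¬ omegaGL ⇑Q ≤ decompositionStabilizer D := by
  classical
  have hdec := hD.decomp.decomp
  have htk := mul_eq_finrank hdec
  obtain ⟨A, hA⟩ : ∃ A : Finset (Fin t), A = Finset.univ.filter fun i : Fin t => 2 * (i : ℕ) + 1 < t := ⟨_, rfl⟩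
  obtain ⟨B, hB⟩ : ∃ B : Finset (Fin t), B = Aᶜ := ⟨_, rfl⟩
  have hAB : Disjoint A B := by rw [hB]; exact disjoint_compl_right
  have hcA : A.card = t / 2 := by
    have h1 : A.map Fin.valEmbedding = Finset.range (t / 2) := by
      ext i
      simp only [Finset.mem_map, Finset.mem_range, hA, Finset.mem_filter, Finset.mem_univ, true_and,
        Fin.valEmbedding_apply]
      constructor
      · rintro ⟨j, hj, rfl⟩; omega
      · intro hi; exact ⟨⟨i, by omega⟩, by show 2 * i + 1 < t; omega, rfl⟩
    rw [← Finset.card_map Fin.valEmbedding, h1, Finset.card_range]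
  have hcB : B.card = t - t / 2 := by
    rw [hB, Finset.card_compl, hcA, Fintype.card_fin]
  have htop : (A.sup D ⊔ B.sup D : Submodule F (ι → F)) = ⊤ := by
    rw [← Finset.sup_union, hB, Finset.union_compl, Finset.sup_univ_eq_iSup, hdec.iSup_eq_top]
  have horth : ∀ (S T : Finset (Fin t)), Disjoint S T → ∀ x ∈ S.sup D, ∀ y ∈ T.sup D, polar Q x y = 0 := by
    intro S T hST x hx
    -- x in the perp
    have h1 : T.sup D ≤ perp Q (S.sup D) := by
      rw [Finset.sup_le_iff]
      intro j hj y hy
      have h2 : S.sup D ≤ perp Q (D j) := by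
        rw [Finset.sup_le_iff]
        intro i hi z hz
        have hij : j ≠ i := by
          rintro rfl
          exact (Finset.disjoint_left.mp hST hi hj)
        intro w hw
        exact hD.decomp.orthogonal j i hij w hw z hz
      intro z hz
      have h3 := h2 hz y hy
      show polar Q z y = 0
      rw [pc]
      exact h3
    intro y hy
    exact h1 hy x hx
  have hnd : ∀ (S T : Finset (Fin t)), Disjoint S T → (S.sup D ⊔ T.sup D : Submodule F (ι → F)) = ⊤ →
      S.sup D ⊓ perp Q (S.sup D) = ⊥ := by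
    intro S T hST h1
    rw [eq_bot_iff]
    rintro x ⟨hx, hx'⟩
    rw [Submodule.mem_bot]
    apply eq_zero_of_polar hQ
    intro y
    have hy : y ∈ S.sup D ⊔ T.sup D := by rw [h1]; trivial
    obtain ⟨a, ha, b, hb, rfl⟩ := Submodule.mem_sup.mp hy
    rw [par, horth S T hST x hx b hb, add_zero, pc]
    exact hx' a ha
  have hdim : 3 ≤ Module.finrank F (A.sup D : Submodule F (ι → F)) ∧
      3 ≤ Module.finrank F (B.sup D : Submodule F (ι → F)) := by
    have h1 := finrank_sup_le D hdec.finrank_eq A
    have h2 := finrank_sup_le D hdec.finrank_eq B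
    have h3 := Submodule.finrank_add_le_finrank_add_finrank (A.sup D) (B.sup D)
    rw [htop, finrank_top, Module.finrank_fintype_fun_eq_card, ← htk] at h3
    rw [hcA] at h1
    rw [hcB] at h2
    have h4 : t * k = k * (t / 2) + k * (t - t / 2) := by
      rw [← mul_add, mul_comm]
      congr 1
      omega
    have h5 := hdec.two_le
    have h6 := hdec.pos
    have h7 : 3 ≤ k * (t / 2) := by
      rcases Nat.lt_or_ge k 3 with hk | hk
      · rcases Nat.lt_or_ge k 2 with hk' | hk'
        · have : k = 1 := by omega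
          subst this; omega
        · have : k = 2 := by omega
          subst this; omega
      · calc 3 = 3 * 1 := rfl
          _ ≤ k * (t / 2) := Nat.mul_le_mul hk (by omega)
    have h8 : k * (t / 2) ≤ k * (t - t / 2) := Nat.mul_le_mul_left _ (by omega)
    constructor <;> omega
  obtain ⟨v, hv, hv0, hqv⟩ := sub_singular (hnd A B hAB htop) hdim.1
  obtain ⟨w, hw, hw0, hqw⟩ := sub_singular (hnd B A hAB.symm (by rw [sup_comm]; exact htop)) hdim.2
  have hvw : polar Q v w = 0 := horth A B hAB v hv w hw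
  have hwtA : ∀ i ∈ wt Q D v, i ∈ A := by
    intro i hi
    by_contra hiA
    obtain ⟨d, hd, hd'⟩ := mem_wt.mp hi
    apply hd'
    apply horth A B hAB v hv
    exact (Finset.le_sup (f := D) (by rw [hB, Finset.mem_compl]; exact hiA)) hd
  have hwtB : ∀ i ∈ wt Q D w, i ∈ B := by
    intro i hi
    by_contra hiB
    obtain ⟨d, hd, hd'⟩ := mem_wt.mp hi
    apply hd'
    apply horth B A hAB.symm w hw
    refine (Finset.le_sup (f := D) ?_) hd
    rw [hB, Finset.mem_compl, not_not] at hiB
    exact hiB
  have hne : (wt Q D w).Nonempty := by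
    rw [Finset.nonempty_iff_ne_empty]
    intro he
    apply hw0
    apply eq_zero_of_polar hQ
    have h1 : (⊤ : Submodule F (ι → F)) ≤ perp Q (F ∙ w) := by
      rw [← hdec.iSup_eq_top, iSup_le_iff]
      intro i d hd
      rintro z hz
      obtain ⟨c, rfl⟩ := Submodule.mem_span_singleton.mp hz
      show polar Q (c • w) d = 0
      rw [psl]
      by_contra hcon
      have : i ∈ wt Q D w := mem_wt.mpr ⟨d, hd, right_ne_zero_of_mul hcon⟩
      rw [he] at this
      exact absurd this (Finset.notMem_empty _)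
    intro y
    exact h1 trivial w (Submodule.mem_span_singleton_self w)
  have hvw0 : v + w ≠ 0 := by
    intro h0
    obtain ⟨i, hi⟩ := hne
    obtain ⟨d, hd, hd'⟩ := mem_wt.mp hi
    have h1 : polar Q (v + w) d = 0 := by rw [h0, polar_zero_left]
    rw [pal] at h1
    have h2 : polar Q v d = 0 := by
      apply horth A B hAB v hv
      exact (Finset.le_sup (f := D) (hwtB i hi)) hd
    rw [h2, zero_add] at h1
    exact hd' h1
  have hsub : wt Q D v ∪ wt Q D w ⊆ wt Q D (v + w) := by
    intro i hi
    rcases Finset.mem_union.mp hi with h | h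
    · obtain ⟨d, hd, hd'⟩ := mem_wt.mp h
      refine mem_wt.mpr ⟨d, hd, ?_⟩
      rw [pal, horth B A hAB.symm w hw d ((Finset.le_sup (f := D) (hwtA i h)) hd), add_zero]
      exact hd'
    · obtain ⟨d, hd, hd'⟩ := mem_wt.mp h
      refine mem_wt.mpr ⟨d, hd, ?_⟩
      rw [pal, horth A B hAB v hv d ((Finset.le_sup (f := D) (hwtB i h)) hd), zero_add]
      exact hd'
  refine not_le_of_weights hQ hn D hv0 hvw0 hqv (by rw [qadd, hqv, hqw, hvw]; simp) ?_
  have h1 := Finset.card_le_card hsub
  rw [Finset.card_union_of_disjoint (Finset.disjoint_left.mpr fun i h1 h2 =>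
    Finset.disjoint_left.mp hAB (hwtA i h1) (hwtB i h2))] at h1
  have h2 := Finset.card_pos.mpr hne
  omega

end Cfsg.Agent.AschCases.OrthNot
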